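import Mathlib
import Cfsg.Agent.H84.PslStmt

/-!
# S5163, piece P5b: `R1` (image of "identity plus first row") contains its centralizer in `PSL_n`
-/

set_option autoImplicit false

namespace Cfsg.Agent.Lib.Helper72.PslP5b

open Cfsg.Agent.H84.PslDefs Cfsg.Agent.H84.PslStmt Matrix

universe u

variable {n : ℕ} {K : Type u} [Field K]

/-- commuting in `PSL` lifts to commuting up to a scalar -/
theorem comm_scalar (h v : SpecialLinearGroup (Fin n) K)
    (hc : proj n K h * proj n K v = proj n K v * proj n K h) :
    ∃ r : K, ∀ a b : Fin n, (h.1 * v.1) a b = (v.1 * h.1) a b * r := by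
  have h1 : proj n K (v * h) = proj n K (h * v) := by
    rw [map_mul, map_mul]; exact hc.symm
  have h2 : (v * h)⁻¹ * (h * v) ∈ Subgroup.center (SpecialLinearGroup (Fin n) K) :=
    QuotientGroup.eq.mp h1
  obtain ⟨r, -, hr⟩ := Matrix.SpecialLinearGroup.mem_center_iff.mp h2
  refine ⟨r, ?_⟩
  have e : h * v = (v * h) * ((v * h)⁻¹ * (h * v)) := by group
  have e2 : h.1 * v.1 = v.1 * h.1 * Matrix.scalar (Fin n) r := by
    have e3 := congrArg Subtype.val e
    rw [hr]
    exact e3
  intro a b
  rw [e2]
  simp [Matrix.scalar_apply, Matrix.mul_diagonal]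

/-- a matrix of `SL_n` which is triangular with constant diagonal `d` and whose rescaling by
`d⁻¹` lies in `V` has image in `V.map proj` -/
theorem finish (h : SpecialLinearGroup (Fin n) K) (d : K) (hd : ∀ i, h.1 i i = d)
    (htri : ∀ i j : Fin n, j < i → h.1 i j = 0) (hn : 0 < n)
    (V : Subgroup (SpecialLinearGroup (Fin n) K))
    (hV : ∀ u : SpecialLinearGroup (Fin n) K, (∀ i j, u.1 i j = d⁻¹ * h.1 i j) → u ∈ V) :
    proj n K h ∈ V.map (proj n K) := by
  have hdet : h.1.det = d ^ n := by
    have hB : h.1.BlockTriangular id := fun i j hij => htri i j hij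
    rw [Matrix.det_of_isUpperTriangular hB]
    simp [hd]
  have hdn : d ^ n = 1 := by rw [← hdet]; exact h.2
  have hd0 : d ≠ 0 := by
    rintro rfl
    rw [zero_pow (by omega)] at hdn
    exact zero_ne_one hdn
  let zc : SpecialLinearGroup (Fin n) K := ⟨Matrix.scalar (Fin n) d, by
    simp [Matrix.scalar_apply, hdn]⟩
  let u : SpecialLinearGroup (Fin n) K := ⟨d⁻¹ • h.1, by
    rw [Matrix.det_smul, h.2, mul_one]
    simp [hdn]⟩
  have hzc : zc ∈ Subgroup.center (SpecialLinearGroup (Fin n) K) :=
    Matrix.SpecialLinearGroup.mem_center_iff.mpr ⟨d, by simpa using hdn, rfl⟩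
  have hmul : h = zc * u := by
    apply Subtype.ext
    show h.1 = Matrix.scalar (Fin n) d * (d⁻¹ • h.1)
    ext i j
    simp [Matrix.scalar_apply, Matrix.diagonal_mul, mul_inv_cancel_left₀ hd0]
  have hz1 : proj n K zc = 1 := by
    apply MonoidHom.mem_ker.mp
    rw [ker_proj]; exact hzc
  have hu : u ∈ V := hV u (fun i j => by
    show (d⁻¹ • h.1) i j = d⁻¹ * h.1 i j
    simp)
  rw [hmul, map_mul, hz1, one_mul]
  exact Subgroup.mem_map_of_mem _ hu

theorem inv_mul_entry (h : SpecialLinearGroup (Fin n) K) :
    h.1 * (h⁻¹ : SpecialLinearGroup (Fin n) K).1 = 1 ∧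
    (h⁻¹ : SpecialLinearGroup (Fin n) K).1 * h.1 = 1 := by
  constructor
  · exact congrArg Subtype.val (mul_inv_cancel h)
  · exact congrArg Subtype.val (inv_mul_cancel h)

theorem main : R1Cent.{u} := by
  intro n K _ _ p _ _ hn g hg
  obtain ⟨h, rfl⟩ := proj_surjective n K g
  let i0 : Fin n := ⟨0, by omega⟩
  have hT : ∀ (l : Fin n) (hl : i0 ≠ l), SpecialLinearGroup.transvection hl (1 : K) ∈ V1 n K := by
    intro l hl
    rw [mem_V1]
    constructor
    · intro i j hij hi
      show (Matrix.transvection i0 l (1 : K)) i j = 0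
      have hi0 : i0 ≠ i := fun e => hi (by rw [← e])
      simp [Matrix.transvection, Matrix.one_apply_ne hij, hi0]
    · intro i
      show (Matrix.transvection i0 l (1 : K)) i i = 1
      have : ¬ (i0 = i ∧ l = i) := fun ⟨e1, e2⟩ => hl (e1.trans e2.symm)
      simp [Matrix.transvection, this]
  -- the relations
  have key : ∀ (l : Fin n), i0 ≠ l → (∀ b, b ≠ l → h.1 l b = 0) ∧ h.1 l l = h.1 i0 i0 ∧
      ∀ a, a ≠ i0 → h.1 a i0 = 0 := by
    intro l hl
    obtain ⟨r, hr⟩ := comm_scalar h _ (hg _ (Subgroup.mem_map_of_mem _ (hT l hl)))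
    have E : ∀ a b : Fin n, (h.1 * Matrix.transvection i0 l (1 : K)) a b =
        (Matrix.transvection i0 l (1 : K) * h.1) a b * r := hr
    have E1 : ∀ a b : Fin n, a ≠ i0 → b ≠ l → h.1 a b = h.1 a b * r := by
      intro a b ha hb
      have := E a b
      rwa [Matrix.mul_transvection_apply_of_ne _ _ _ _ hb,
        Matrix.transvection_mul_apply_of_ne _ _ _ _ ha] at this
    have hr1 : r = 1 := by
      by_contra hne
      have hz : ∀ a b : Fin n, a ≠ i0 → b ≠ l → h.1 a b = 0 := by
        intro a b ha hb
        have h1 := E1 a b ha hb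
        have h2 : h.1 a b * (1 - r) = 0 := by rw [mul_sub, mul_one, ← h1, sub_self]
        rcases mul_eq_zero.mp h2 with h3 | h3
        · exact h3
        · exact absurd (sub_eq_zero.mp h3).symm hne
      obtain ⟨hinv, -⟩ := inv_mul_entry h
      have hrow : ∀ a c : Fin n, a ≠ i0 → (1 : Matrix (Fin n) (Fin n) K) a c =
          h.1 a l * (h⁻¹ : SpecialLinearGroup (Fin n) K).1 l c := by
        intro a c ha
        rw [← hinv, Matrix.mul_apply]
        apply Finset.sum_eq_single l
        · intro b _ hb
          rw [hz a b ha hb, zero_mul]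
        · intro hh; exact absurd (Finset.mem_univ l) hh
      let a1 : Fin n := ⟨1, by omega⟩
      let a2 : Fin n := ⟨2, by omega⟩
      have ha1 : a1 ≠ i0 := by intro e; have := congrArg Fin.val e; simp [a1, i0] at this
      have ha2 : a2 ≠ i0 := by intro e; have := congrArg Fin.val e; simp [a2, i0] at this
      have ha12 : a2 ≠ a1 := by intro e; have := congrArg Fin.val e; simp [a1, a2] at this
      have e1 := hrow a1 a1 ha1
      have e2 := hrow a2 a1 ha2
      have e3 := hrow a2 a2 ha2
      rw [Matrix.one_apply_eq] at e1 e3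
      rw [Matrix.one_apply_ne ha12] at e2
      have hw : (h⁻¹ : SpecialLinearGroup (Fin n) K).1 l a1 ≠ 0 := by
        intro hw; rw [hw, mul_zero] at e1; exact one_ne_zero e1
      have h4 : h.1 a2 l = 0 := by
        rcases mul_eq_zero.mp e2.symm with h5 | h5
        · exact h5
        · exact absurd h5 hw
      rw [h4, zero_mul] at e3
      exact one_ne_zero e3
    rw [hr1] at E
    simp only [mul_one] at E
    refine ⟨?_, ?_, ?_⟩
    · intro b hb
      have := E i0 b
      rw [Matrix.mul_transvection_apply_of_ne _ _ _ _ hb,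
        Matrix.transvection_mul_apply_same] at this
      simpa using this
    · have := E i0 l
      rw [Matrix.mul_transvection_apply_same, Matrix.transvection_mul_apply_same] at this
      simpa using this.symm
    · intro a ha
      have := E a l
      rw [Matrix.mul_transvection_apply_same,
        Matrix.transvection_mul_apply_of_ne _ _ _ _ ha] at this
      simpa using this
  have hne0 : ∀ i : Fin n, i.val ≠ 0 → i0 ≠ i := by
    intro i hi e; exact hi (by rw [← e])
  apply finish h (h.1 i0 i0)
  · intro i
    by_cases hi : i.val = 0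
    · have : i = i0 := Fin.ext hi
      rw [this]
    · exact (key i (hne0 i hi)).2.1
  · intro i j hji
    have hi : i.val ≠ 0 := by
      have : j.val < i.val := hji
      omega
    exact (key i (hne0 i hi)).1 j (ne_of_lt hji)
  · omega
  · intro u hu
    rw [mem_V1]
    constructor
    · intro i j hij hi
      show u.1 i j = 0
      rw [hu, (key i (hne0 i hi)).1 j (Ne.symm hij), mul_zero]
    · intro i
      show u.1 i i = 1
      rw [hu]
      have hd : h.1 i i = h.1 i0 i0 := by
        by_cases hi : i.val = 0
        · have : i = i0 := Fin.ext hi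
          rw [this]
        · exact (key i (hne0 i hi)).2.1
      rw [hd]
      have hd0 : h.1 i0 i0 ≠ 0 := by
        intro h0
        obtain ⟨hinv, -⟩ := inv_mul_entry h
        have h1 : (1 : Matrix (Fin n) (Fin n) K) i0 i0 = 0 := by
          rw [← (inv_mul_entry h).2, Matrix.mul_apply]
          apply Finset.sum_eq_zero
          intro b _
          by_cases hb : b = i0
          · rw [hb, h0, mul_zero]
          · have hl : i0 ≠ b := Ne.symm hb
            rw [(key b hl).2.2 b hb, mul_zero]
        rw [Matrix.one_apply_eq] at h1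
        exact one_ne_zero h1
      exact inv_mul_cancel₀ hd0

end Cfsg.Agent.Lib.Helper72.PslP5b
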