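import Mathlib
import Cfsg.Agent.H84.PslStmt
import Cfsg.Agent.Lib.Helper72.PslP5b

/-!
# S5163, piece P6b: `R2` (image of "identity plus last column") contains its centralizer in `PSL_n`
-/

set_option autoImplicit false

namespace Cfsg.Agent.Lib.Helper72.PslP6b

open Cfsg.Agent.H84.PslDefs Cfsg.Agent.H84.PslStmt Matrix Cfsg.Agent.Lib.Helper72.PslP5b

universe u

theorem main : R2Cent.{u} := by
  intro n K _ _ p _ _ hn g hg
  obtain ⟨h, rfl⟩ := proj_surjective n K g
  let L : Fin n := ⟨n - 1, by omega⟩
  have hLv : L.val + 1 = n := by simp [L]; omega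
  have hT : ∀ (k : Fin n) (hk : k ≠ L), SpecialLinearGroup.transvection hk (1 : K) ∈ V2 n K := by
    intro k hk
    rw [mem_V2]
    constructor
    · intro i j hij hj
      show (Matrix.transvection k L (1 : K)) i j = 0
      have hj0 : L ≠ j := fun e => hj (by rw [← e]; exact hLv)
      simp [Matrix.transvection, Matrix.one_apply_ne hij, hj0]
    · intro i
      show (Matrix.transvection k L (1 : K)) i i = 1
      have : ¬ (k = i ∧ L = i) := fun ⟨e1, e2⟩ => hk (e1.trans e2.symm)
      simp [Matrix.transvection, this]
  -- the relations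
  have key : ∀ (k : Fin n), k ≠ L → (∀ a, a ≠ k → h.1 a k = 0) ∧ h.1 k k = h.1 L L ∧
      ∀ b, b ≠ L → h.1 L b = 0 := by
    intro k hk
    obtain ⟨r, hr⟩ := comm_scalar h _ (hg _ (Subgroup.mem_map_of_mem _ (hT k hk)))
    have E : ∀ a b : Fin n, (h.1 * Matrix.transvection k L (1 : K)) a b =
        (Matrix.transvection k L (1 : K) * h.1) a b * r := hr
    have E1 : ∀ a b : Fin n, a ≠ k → b ≠ L → h.1 a b = h.1 a b * r := by
      intro a b ha hb
      have := E a b
      rwa [Matrix.mul_transvection_apply_of_ne _ _ _ _ hb,
        Matrix.transvection_mul_apply_of_ne _ _ _ _ ha] at this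
    have hr1 : r = 1 := by
      by_contra hne
      have hz : ∀ a b : Fin n, a ≠ k → b ≠ L → h.1 a b = 0 := by
        intro a b ha hb
        have h1 := E1 a b ha hb
        have h2 : h.1 a b * (1 - r) = 0 := by rw [mul_sub, mul_one, ← h1, sub_self]
        rcases mul_eq_zero.mp h2 with h3 | h3
        · exact h3
        · exact absurd (sub_eq_zero.mp h3).symm hne
      obtain ⟨-, hinv⟩ := inv_mul_entry h
      have hcol : ∀ c b : Fin n, b ≠ L → (1 : Matrix (Fin n) (Fin n) K) c b =
          (h⁻¹ : SpecialLinearGroup (Fin n) K).1 c k * h.1 k b := by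
        intro c b hb
        rw [← hinv, Matrix.mul_apply]
        apply Finset.sum_eq_single k
        · intro a _ ha
          rw [hz a b ha hb, mul_zero]
        · intro hh; exact absurd (Finset.mem_univ k) hh
      let b1 : Fin n := ⟨0, by omega⟩
      let b2 : Fin n := ⟨1, by omega⟩
      have hb1 : b1 ≠ L := by intro e; have := congrArg Fin.val e; simp [b1, L] at this; omega
      have hb2 : b2 ≠ L := by intro e; have := congrArg Fin.val e; simp [b2, L] at this; omega
      have hb12 : b1 ≠ b2 := by intro e; have := congrArg Fin.val e; simp [b1, b2] at this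
      have e1 := hcol b1 b1 hb1
      have e2 := hcol b1 b2 hb2
      have e3 := hcol b2 b2 hb2
      rw [Matrix.one_apply_eq] at e1 e3
      rw [Matrix.one_apply_ne hb12] at e2
      have hw : (h⁻¹ : SpecialLinearGroup (Fin n) K).1 b1 k ≠ 0 := by
        intro hw; rw [hw, zero_mul] at e1; exact one_ne_zero e1
      have h4 : h.1 k b2 = 0 := by
        rcases mul_eq_zero.mp e2.symm with h5 | h5
        · exact absurd h5 hw
        · exact h5
      rw [h4, mul_zero] at e3
      exact one_ne_zero e3
    rw [hr1] at E
    simp only [mul_one] at E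
    refine ⟨?_, ?_, ?_⟩
    · intro a ha
      have := E a L
      rw [Matrix.mul_transvection_apply_same,
        Matrix.transvection_mul_apply_of_ne _ _ _ _ ha] at this
      simpa using this
    · have := E k L
      rw [Matrix.mul_transvection_apply_same, Matrix.transvection_mul_apply_same] at this
      simpa using this
    · intro b hb
      have := E k b
      rw [Matrix.mul_transvection_apply_of_ne _ _ _ _ hb,
        Matrix.transvection_mul_apply_same] at this
      simpa using this
  have hneL : ∀ j : Fin n, j.val + 1 ≠ n → j ≠ L := by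
    intro j hj e; exact hj (by rw [e]; exact hLv)
  have hdiag : ∀ i : Fin n, h.1 i i = h.1 L L := by
    intro i
    by_cases hi : i = L
    · rw [hi]
    · exact (key i hi).2.1
  apply finish h (h.1 L L) hdiag
  · intro i j hji
    have hj : j.val + 1 ≠ n := by
      have : j.val < i.val := hji
      have := i.2
      omega
    exact (key j (hneL j hj)).1 i (ne_of_gt hji)
  · omega
  · intro u hu
    rw [mem_V2]
    constructor
    · intro i j hij hj
      show u.1 i j = 0
      rw [hu, (key j (hneL j hj)).1 i hij, mul_zero]
    · intro i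
      show u.1 i i = 1
      rw [hu, hdiag i]
      have hd0 : h.1 L L ≠ 0 := by
        intro h0
        have h1 : (1 : Matrix (Fin n) (Fin n) K) L L = 0 := by
          rw [← (inv_mul_entry h).1, Matrix.mul_apply]
          apply Finset.sum_eq_zero
          intro b _
          by_cases hb : b = L
          · rw [hb, h0, zero_mul]
          · rw [(key b hb).2.2 b hb, zero_mul]
        rw [Matrix.one_apply_eq] at h1
        exact one_ne_zero h1
      exact inv_mul_cancel₀ hd0

end Cfsg.Agent.Lib.Helper72.PslP6b
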