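import Mathlib
import Cfsg.Agent.Lib.Helper16.P2pStmt

/-!
# S4707, piece [NOSUB]: split into an abstract piece [NF] and a concrete piece [TS]

* `NF`: a finite group `H` of order `r (2r - 1)`, `r ≥ 3`, has no commutative Sylow 2-subgroup
  `S` of order `r` containing the centralizer of each of its non-trivial elements.
* `TS`: in the situation of `NoSub`, a subgroup of index `2p` has such a Sylow 2-subgroup.
-/

set_option autoImplicit false

namespace Cfsg.Agent.Lib.Helper72.P2NoSubStmt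

open Subgroup

universe u

/-- [NF] no group of order `r (2r - 1)` with a commutative self-centralizing TI Sylow
2-subgroup of order `r ≥ 3`. -/
def NF : Prop :=
  ∀ (H : Type u) [Group H] [Finite H] (r : ℕ), 3 ≤ r → ∀ S : Sylow 2 H,
    Nat.card (S : Subgroup H) = r → Nat.card H = r * (2 * r - 1) →
    (∀ x ∈ (S : Subgroup H), ∀ y ∈ (S : Subgroup H), x * y = y * x) →
    (∀ s ∈ (S : Subgroup H), s ≠ 1 → ∀ x : H, s * x = x * s → x ∈ (S : Subgroup H)) → False

/-- [TS] the configuration inside a subgroup of index `2p`. -/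
def TS : Prop :=
  ∀ (G : Type u) [Group G] [Finite G] (p : ℕ), p.Prime → 7 ≤ p →
    Nat.card G = p * (p - 1) * (p - 2) → ∀ w : G, orderOf w = 2 →
    Nat.card (centralizer ({w} : Set G)) = p - 1 →
    (∀ c ∈ centralizer ({w} : Set G), c ≠ 1 → IsConj c w) →
    ∀ H : Subgroup G, H.index = 2 * p →
    ∃ (r : ℕ) (S : Sylow 2 H), 3 ≤ r ∧ Nat.card (S : Subgroup H) = r ∧
      Nat.card H = r * (2 * r - 1) ∧
      (∀ x ∈ (S : Subgroup H), ∀ y ∈ (S : Subgroup H), x * y = y * x) ∧
      (∀ s ∈ (S : Subgroup H), s ≠ 1 → ∀ x : H, s * x = x * s → x ∈ (S : Subgroup H))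

theorem noSub_of (hNF : NF.{u}) (hTS : TS.{u}) : Cfsg.Agent.Lib.Helper16.P2pStmt.NoSub.{u} := by
  intro G _ _ p hp h7 hG w hw hT hc H hH
  obtain ⟨r, S, h3, hS, hH', hab, hcent⟩ := hTS G p hp h7 hG w hw hT hc H hH
  exact hNF H r h3 S hS hH' hab hcent

end Cfsg.Agent.Lib.Helper72.P2NoSubStmt
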