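import Mathlib
import Cfsg.Agent.Lib.Helper72.P2NoSubStmt

/-!
Piece [TS] of S4707/NOSUB: the configuration inside a subgroup of index `2p`.
-/

set_option autoImplicit false

namespace Cfsg.Agent.Lib.Helper72.P2TS

open Subgroup

universe u

/-- a `2`-power dividing `2 ^ a * odd` divides `2 ^ a` -/
theorem two_pow_dvd {j a k : ℕ} (hk : Odd k) (h : 2 ^ j ∣ 2 ^ a * k) : 2 ^ j ∣ 2 ^ a :=
  (Nat.Coprime.pow_left j (Nat.coprime_two_left.2 hk)).dvd_of_dvd_mul_right h

theorem main : Cfsg.Agent.Lib.Helper72.P2NoSubStmt.TS.{u} := by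
  intro G _ _ p hp h7 hG w hw hT hc H hH
  classical
  obtain ⟨T, hTdef⟩ : ∃ T : Subgroup G, T = centralizer ({w} : Set G) := ⟨_, rfl⟩
  rw [← hTdef] at hT hc
  have hw2 : w * w = 1 := by
    have := pow_orderOf_eq_one w
    rw [hw, pow_two] at this
    exact this
  -- squares in `T`
  have hsq : ∀ c ∈ T, c * c = 1 := by
    intro c hcT
    by_cases hc1 : c = 1
    · rw [hc1, mul_one]
    · obtain ⟨g, hg⟩ := isConj_iff.1 (hc c hcT hc1)
      have h1 : g * (c * c) * g⁻¹ = 1 := by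
        calc g * (c * c) * g⁻¹ = (g * c * g⁻¹) * (g * c * g⁻¹) := by group
          _ = 1 := by rw [hg, hw2]
      calc c * c = g⁻¹ * (g * (c * c) * g⁻¹) * g := by group
        _ = 1 := by rw [h1]; group
  have hT2 : IsPGroup 2 T := by
    intro c
    refine ⟨1, ?_⟩
    apply Subtype.ext
    rw [pow_one, pow_two]
    exact hsq c c.2
  obtain ⟨m, hm⟩ := IsPGroup.iff_card.1 hT2
  rw [hT] at hm
  -- arithmetic
  have hm1 : 1 ≤ m := by
    by_contra h0
    have : m = 0 := by omega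
    rw [this, pow_zero] at hm
    omega
  obtain ⟨m', rfl⟩ : ∃ m', m = m' + 1 := ⟨m - 1, by omega⟩
  obtain ⟨r, hr⟩ : ∃ r : ℕ, r = 2 ^ m' := ⟨_, rfl⟩
  have hp2r : p = 2 * r + 1 := by
    rw [pow_succ, ← hr] at hm
    omega
  have hr3 : 3 ≤ r := by omega
  have hodd1 : Odd ((2 * r + 1) * (2 * r - 1)) := by
    apply Odd.mul
    · exact ⟨r, rfl⟩
    · exact ⟨r - 1, by omega⟩
  have hodd2 : Odd (2 * r - 1) := ⟨r - 1, by omega⟩
  have hGcard : Nat.card G = 2 ^ (m' + 1) * ((2 * r + 1) * (2 * r - 1)) := by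
    rw [hG, hp2r, pow_succ, ← hr]
    have e1 : 2 * r + 1 - 1 = r * 2 := by omega
    have e2 : 2 * r + 1 - 2 = 2 * r - 1 := by omega
    rw [e1, e2]
    ring
  have hHcard : Nat.card H = r * (2 * r - 1) := by
    have h1 := H.index_mul_card
    rw [hH, hG, hp2r] at h1
    have e1 : 2 * r + 1 - 1 = 2 * r := by omega
    have e2 : 2 * r + 1 - 2 = 2 * r - 1 := by omega
    rw [e1, e2] at h1
    have h2 : 2 * (2 * r + 1) * Nat.card H = 2 * (2 * r + 1) * (r * (2 * r - 1)) := by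
      rw [h1]; ring
    exact Nat.eq_of_mul_eq_mul_left (by omega) h2
  -- `T` is a Sylow 2-subgroup
  obtain ⟨Q, hTQ⟩ := hT2.exists_le_sylow
  have hQT : (Q : Subgroup G) = T := by
    obtain ⟨j, hj⟩ := IsPGroup.iff_card.1 Q.2
    have h1 : 2 ^ j ∣ 2 ^ (m' + 1) * ((2 * r + 1) * (2 * r - 1)) := by
      rw [← hj, ← hGcard]
      exact Subgroup.card_subgroup_dvd_card _
    have h2 := two_pow_dvd hodd1 h1
    symm
    apply Subgroup.eq_of_le_of_card_ge hTQ
    rw [hj, hT, hm]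
    exact Nat.le_of_dvd (by positivity) h2
  -- every 2-subgroup is conjugate into `T`
  have hconj : ∀ R : Subgroup G, IsPGroup 2 R → ∃ g : G, ∀ x ∈ R, g⁻¹ * x * g ∈ T := by
    intro R hR
    obtain ⟨Q', hRQ'⟩ := hR.exists_le_sylow
    obtain ⟨g, hg⟩ := MulAction.exists_smul_eq G Q Q'
    refine ⟨g, fun x hx => ?_⟩
    have h1 : x ∈ (Q' : Subgroup G) := hRQ' hx
    rw [← hg, Sylow.coe_subgroup_smul, Subgroup.mem_pointwise_smul_iff_inv_smul_mem,
      MulAut.smul_def, MulAut.conj_inv_apply, hQT] at h1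
    exact h1
  -- the Sylow 2-subgroup of `H`
  obtain ⟨S⟩ : Nonempty (Sylow 2 H) := inferInstance
  have hScard : Nat.card (S : Subgroup H) = r := by
    obtain ⟨j, hj⟩ := IsPGroup.iff_card.1 S.2
    have h1 : 2 ^ j ∣ 2 ^ m' * (2 * r - 1) := by
      rw [← hj, ← hr, ← hHcard]
      exact Subgroup.card_subgroup_dvd_card _
    have h2 := two_pow_dvd hodd2 h1
    have h3 : 2 ^ m' ∣ Nat.card (S : Subgroup H) := by
      apply S.pow_dvd_card_of_pow_dvd_card
      rw [hHcard, ← hr]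
      exact dvd_mul_right _ _
    rw [hr]
    rw [hj] at h3 ⊢
    exact Nat.dvd_antisymm h2 h3
  obtain ⟨g, hg⟩ := hconj ((S : Subgroup H).map H.subtype) (S.2.map H.subtype)
  have hgS : ∀ x : H, x ∈ (S : Subgroup H) → g⁻¹ * (x : G) * g ∈ T := by
    intro x hx
    exact hg _ ⟨x, hx, rfl⟩
  have hsqG : ∀ y : G, (g⁻¹ * y * g) * (g⁻¹ * y * g) = 1 → y * y = 1 := by
    intro y hy
    calc y * y = g * ((g⁻¹ * y * g) * (g⁻¹ * y * g)) * g⁻¹ := by group
      _ = 1 := by rw [hy]; group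
  have hSsq : ∀ x : H, x ∈ (S : Subgroup H) → x * x = 1 := by
    intro x hx
    apply Subtype.ext
    rw [Subgroup.coe_mul, Subgroup.coe_one]
    exact hsqG _ (hsq _ (hgS x hx))
  have hScomm : ∀ x ∈ (S : Subgroup H), ∀ y ∈ (S : Subgroup H), x * y = y * x := by
    intro x hx y hy
    have h1 := hSsq x hx
    have h2 := hSsq y hy
    have h3 := hSsq (x * y) (mul_mem hx hy)
    have e1 : x = x⁻¹ := eq_inv_of_mul_eq_one_left h1
    have e2 : y = y⁻¹ := eq_inv_of_mul_eq_one_left h2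
    have e3 : x * y = (x * y)⁻¹ := eq_inv_of_mul_eq_one_left h3
    rw [e3, mul_inv_rev, ← e1, ← e2]
  refine ⟨r, S, hr3, hScard, hHcard, hScomm, ?_⟩
  intro s hs hs1 x hx
  -- every element of the centralizer of `s` in `H` has square one
  have hcsq : ∀ x : H, s * x = x * s → x * x = 1 := by
    intro x hx
    have ht : g⁻¹ * (s : G) * g ∈ T := hgS s hs
    have ht1 : g⁻¹ * (s : G) * g ≠ 1 := by
      intro h1
      apply hs1
      apply Subtype.ext
      rw [Subgroup.coe_one]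
      calc (s : G) = g * (g⁻¹ * (s : G) * g) * g⁻¹ := by group
        _ = 1 := by rw [h1]; group
    obtain ⟨c, hcw⟩ := isConj_iff.1 (hc _ ht ht1)
    have hx' : (s : G) * (x : G) = (x : G) * (s : G) := by
      have := congrArg Subtype.val hx
      rwa [Subgroup.coe_mul, Subgroup.coe_mul] at this
    have hz : c * (g⁻¹ * (x : G) * g) * c⁻¹ ∈ T := by
      rw [hTdef, mem_centralizer_iff]
      intro h hh
      rw [Set.mem_singleton_iff] at hh
      rw [hh, ← hcw]
      calc c * (g⁻¹ * (s : G) * g) * c⁻¹ * (c * (g⁻¹ * (x : G) * g) * c⁻¹)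
          = c * g⁻¹ * ((s : G) * (x : G)) * g * c⁻¹ := by group
        _ = c * g⁻¹ * ((x : G) * (s : G)) * g * c⁻¹ := by rw [hx']
        _ = c * (g⁻¹ * (x : G) * g) * c⁻¹ * (c * (g⁻¹ * (s : G) * g) * c⁻¹) := by group
    have hz2 := hsq _ hz
    have hy2 : (g⁻¹ * (x : G) * g) * (g⁻¹ * (x : G) * g) = 1 := by
      calc (g⁻¹ * (x : G) * g) * (g⁻¹ * (x : G) * g)
          = c⁻¹ * ((c * (g⁻¹ * (x : G) * g) * c⁻¹) * (c * (g⁻¹ * (x : G) * g) * c⁻¹)) * c := by
            group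
        _ = 1 := by rw [hz2]; group
    apply Subtype.ext
    rw [Subgroup.coe_mul, Subgroup.coe_one]
    exact hsqG _ hy2
  have hC2 : IsPGroup 2 (centralizer ({s} : Set H)) := by
    intro c
    refine ⟨1, ?_⟩
    apply Subtype.ext
    rw [pow_one, pow_two]
    have hcm : (c : H) ∈ centralizer ({s} : Set H) := c.2
    rw [mem_centralizer_iff] at hcm
    exact hcsq c (hcm s rfl)
  have hSC : (S : Subgroup H) ≤ centralizer ({s} : Set H) := by
    intro y hy
    rw [mem_centralizer_iff]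
    intro h hh
    rw [Set.mem_singleton_iff] at hh
    rw [hh]
    exact hScomm s hs y hy
  have hCS := S.3 hC2 hSC
  rw [← hCS, mem_centralizer_iff]
  intro h hh
  rw [Set.mem_singleton_iff] at hh
  rw [hh]
  exact hx

end Cfsg.Agent.Lib.Helper72.P2TS
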