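import Mathlib
import Cfsg.Agent.Lib.Helper72.P2NoSubStmt
import Cfsg.Agent.Lib.Helper72.P2TS
import Cfsg.Agent.Lib.Helper89.P2NF

/-!
Piece [NOSUB] of S4707: no subgroup of index `2p` (assembly of [NF] and [TS]).
-/

set_option autoImplicit false

namespace Cfsg.Agent.Lib.Helper72.P2NOSUB

universe u

theorem main : Cfsg.Agent.Lib.Helper16.P2pStmt.NoSub.{u} :=
  Cfsg.Agent.Lib.Helper72.P2NoSubStmt.noSub_of Cfsg.Agent.Lib.Helper89.P2NF.main
    Cfsg.Agent.Lib.Helper72.P2TS.main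

end Cfsg.Agent.Lib.Helper72.P2NOSUB
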