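import Mathlib
import Cfsg.Agent.Lib.Helper16.P2pStmt

/-!
Piece [PRE3] of S4707: `P` is self-centralizing.
-/

set_option autoImplicit false

namespace Cfsg.Agent.Lib.Helper72.P2PRE3

open Subgroup

universe u

/-- a subgroup of prime order is commutative -/
theorem comm_of_card_prime {G : Type u} [Group G] (p : ℕ) [Fact p.Prime] (P : Subgroup G)
    (hP : Nat.card P = p) : ∀ x ∈ P, ∀ y ∈ P, x * y = y * x := by
  haveI : IsCyclic ↥P := isCyclic_of_prime_card hP
  obtain ⟨g, hg⟩ := IsCyclic.exists_generator (α := ↥P)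
  intro x hx y hy
  obtain ⟨i, hi⟩ := Subgroup.mem_zpowers_iff.1 (hg ⟨x, hx⟩)
  obtain ⟨j, hj⟩ := Subgroup.mem_zpowers_iff.1 (hg ⟨y, hy⟩)
  have h1 : (⟨x, hx⟩ : ↥P) * ⟨y, hy⟩ = ⟨y, hy⟩ * ⟨x, hx⟩ := by
    rw [← hi, ← hj, ← zpow_add, ← zpow_add, add_comm]
  exact congrArg Subtype.val h1

theorem main : Cfsg.Agent.Lib.Helper16.P2pStmt.Pre3.{u} := by
  intro G _ _ p _ hp2 P hP hN hmin
  have hp : p.Prime := Fact.out
  have hcomm := comm_of_card_prime p (P : Subgroup G) hP
  have hPC : (P : Subgroup G) ≤ centralizer ((P : Subgroup G) : Set G) := by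
    intro x hx
    rw [mem_centralizer_iff]
    intro y hy
    exact hcomm y hy x hx
  have hCN : centralizer ((P : Subgroup G) : Set G) ≤ normalizer ((P : Subgroup G) : Set G) :=
    centralizer_le_normalizer _
  by_contra hne
  have h1 : Nat.card (centralizer ((P : Subgroup G) : Set G)) ∣ 2 * p := by
    have h := Subgroup.card_dvd_of_le hCN
    rw [hN] at h
    exact h
  have h2 : p ∣ Nat.card (centralizer ((P : Subgroup G) : Set G)) := by
    have h := Subgroup.card_dvd_of_le hPC
    rw [hP] at h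
    exact h
  obtain ⟨j, hj⟩ := h2
  have hj2 : j ∣ 2 := by
    rw [hj, mul_comm] at h1
    exact Nat.dvd_of_mul_dvd_mul_right hp.pos h1
  rcases (Nat.dvd_prime Nat.prime_two).1 hj2 with rfl | rfl
  · apply hne
    exact (Subgroup.eq_of_le_of_card_ge hPC (by rw [hj, hP, mul_one])).symm
  · have hCeqN : centralizer ((P : Subgroup G) : Set G) = normalizer ((P : Subgroup G) : Set G) :=
      Subgroup.eq_of_le_of_card_ge hCN (by rw [hN, hj, mul_comm])
    have hNC : normalizer ((P : Subgroup G) : Set G) ≤ centralizer ((P : Subgroup G) : Set G) :=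
      hCeqN.ge
    have hcomp := MonoidHom.ker_transferSylow_isComplement' P hNC
    have hK : (MonoidHom.transferSylow P hNC).ker ≠ ⊥ := by
      intro hK
      have h3 := hcomp.card_mul_card
      rw [hK, Subgroup.card_bot, one_mul, hP] at h3
      have h4 := Subgroup.card_le_card_group (normalizer ((P : Subgroup G) : Set G))
      rw [hN, ← h3] at h4
      have := hp.pos
      omega
    have hPK := hmin _ (MonoidHom.normal_ker _) hK
    have hdisj := hcomp.disjoint
    have h5 : (P : Subgroup G) = ⊥ := le_bot_iff.1 (hdisj hPK le_rfl)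
    rw [h5, Subgroup.card_bot] at hP
    exact hp.one_lt.ne hP

end Cfsg.Agent.Lib.Helper72.P2PRE3
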