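import Mathlib
import Cfsg.Agent.Lib.Helper91.Hall

/-!
# Splitting over an abelian normal `p`-subgroup with trivial fixed points (for BG Theorem 3.6)

* `split_of_cent_bot` : `V ≤ X ≤ K`, `V` and `X` normal in `G`, `V` an abelian `p`-group,
  `X / V` a `p'`-group and `C_V(X) = 1`.  Then `K` splits over `V`: there is `L ≤ K` with
  `V ∩ L = 1` and `K = V L` (Schur–Zassenhaus in `X` and the Frattini argument, `L = N_K(Q)` for
  a complement `Q` of `V` in `X`).
-/

set_option autoImplicit false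

namespace Cfsg.Agent.Lib.Helper72.BG36b

open Cfsg
open scoped Pointwise

theorem split_of_cent_bot {G : Type*} [Group G] [Finite G] (p : ℕ) [Fact p.Prime]
    (V X K : Subgroup G) [V.Normal] [X.Normal]
    (hVX : V ≤ X) (hXK : X ≤ K) (hVc : ∀ a ∈ V, ∀ b ∈ V, a * b = b * a) (hVp : IsPGroup p V)
    (hXV : ¬ (p ∣ V.relIndex X)) (hC : V ⊓ Subgroup.centralizer (X : Set G) = ⊥) :
    ∃ L : Subgroup G, L ≤ K ∧ V ⊓ L = ⊥ ∧ ∀ k ∈ K, ∃ v ∈ V, ∃ n ∈ L, k = v * n := by
  classical
  have hp := (Fact.out : p.Prime)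
  have hVn : V.Normal := inferInstance
  have hXn : X.Normal := inferInstance
  -- Schur–Zassenhaus inside `X`
  haveI hNn : (V.subgroupOf X).Normal := inferInstance
  haveI hNc : IsMulCommutative ↥(V.subgroupOf X) :=
    ⟨⟨fun a b => Subtype.ext (Subtype.ext (hVc a.1 (Subgroup.mem_subgroupOf.mp a.2) b.1
      (Subgroup.mem_subgroupOf.mp b.2)))⟩⟩
  have hNp : IsPGroup p ↥(V.subgroupOf X) := hVp.comap_subtype
  have hcop : (Nat.card ↥(V.subgroupOf X)).Coprime (V.subgroupOf X).index := by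
    obtain ⟨n, hn⟩ := hNp.exists_card_eq
    rw [hn]
    exact Nat.Coprime.pow_left n ((Nat.Prime.coprime_iff_not_dvd hp).mpr hXV)
  obtain ⟨Q', hQ'⟩ := Subgroup.exists_right_complement'_of_coprime hcop
  have hVQ : ∀ a, a ∈ V → a ∈ Q'.map X.subtype → a = 1 := by
    rintro a haV ⟨q, hq, rfl⟩
    have h1 : q ∈ V.subgroupOf X ⊓ Q' := ⟨Subgroup.mem_subgroupOf.mpr haV, hq⟩
    rw [hQ'.disjoint.eq_bot, Subgroup.mem_bot] at h1
    rw [h1]
    rfl
  have hdec : ∀ x ∈ X, ∃ v ∈ V, ∃ q ∈ Q'.map X.subtype, x = v * q := by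
    intro x hx
    have h1 : (⟨x, hx⟩ : ↥X) ∈ ((V.subgroupOf X ⊔ Q' : Subgroup ↥X) : Set ↥X) := by
      rw [hQ'.sup_eq_top]
      trivial
    rw [Subgroup.normal_mul] at h1
    obtain ⟨n, hn, q, hq, hnq⟩ := Set.mem_mul.mp h1
    refine ⟨n, Subgroup.mem_subgroupOf.mp hn, q, ⟨q, hq, rfl⟩, ?_⟩
    have := congrArg Subtype.val hnq
    simpa using this.symm
  have hQX : Q'.map X.subtype ≤ X := Subgroup.map_subtype_le _
  -- Frattini argument
  have hfr : ∀ k : G, ∃ g ∈ X, g⁻¹ * k ∈ Subgroup.normalizer ((Q'.map X.subtype : Subgroup G) : Set G) := by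
    intro k
    have hcard : Nat.card ↥(Q'.map (MulAut.conjNormal k : MulAut ↥X).toMonoidHom) = Nat.card ↥Q' :=
      Subgroup.card_map_of_injective (MulAut.conjNormal k : MulAut ↥X).injective
    have hQ'' : Subgroup.IsComplement' (V.subgroupOf X)
        (Q'.map (MulAut.conjNormal k : MulAut ↥X).toMonoidHom) := by
      apply Subgroup.isComplement'_of_coprime
      · rw [hcard]
        exact hQ'.card_mul_card
      · rw [hcard, ← hQ'.symm.index_eq_card]
        exact hcop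
    obtain ⟨g, hg⟩ := Cfsg.Agent.Lib.Helper91.Hall.sz_abelian_conj (V.subgroupOf X) hcop Q' _ hQ' hQ''
    refine ⟨g, g.2, ?_⟩
    rw [Subgroup.mem_normalizer_iff]
    intro h
    constructor
    · rintro ⟨q, hq, rfl⟩
      have h1 : (MulAut.conjNormal k q : ↥X) ∈
          Q'.map (MulAut.conjNormal k : MulAut ↥X).toMonoidHom := ⟨q, hq, rfl⟩
      rw [← hg, Subgroup.mem_pointwise_smul_iff_inv_smul_mem] at h1
      refine ⟨_, h1, ?_⟩
      simp [MulAut.smul_def, MulAut.conjNormal_apply, mul_assoc]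
    · rintro ⟨q₂, hq₂, hq₂e⟩
      have h1 : MulAut.conj g • q₂ ∈ MulAut.conj g • Q' :=
        Subgroup.smul_mem_pointwise_smul _ _ _ hq₂
      rw [hg] at h1
      obtain ⟨q₃, hq₃, hq₃e⟩ := h1
      refine ⟨q₃, hq₃, ?_⟩
      have h2 := congrArg Subtype.val hq₃e
      simp only [MulEquiv.coe_toMonoidHom, MulAut.conjNormal_apply, MulAut.smul_def,
        MulAut.conj_apply, Subgroup.coe_mul, Subgroup.coe_inv] at h2
      have h3 : (q₂ : G) = (g : G)⁻¹ * k * h * ((g : G)⁻¹ * k)⁻¹ := hq₂e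
      rw [h3] at h2
      show (q₃ : G) = h
      have h4 : k * (q₃ : G) * k⁻¹ = k * h * k⁻¹ := by
        rw [h2]
        group
      have h5 := mul_left_cancel (mul_right_cancel h4)
      exact h5
  refine ⟨K ⊓ Subgroup.normalizer ((Q'.map X.subtype : Subgroup G) : Set G), inf_le_left, ?_, ?_⟩
  · rw [eq_bot_iff]
    rintro v ⟨hvV, -, hvN⟩
    have hvc : v ∈ Subgroup.centralizer (X : Set G) := by
      rw [Subgroup.mem_centralizer_iff]
      intro x hx
      obtain ⟨v', hv', q, hq, rfl⟩ := hdec x hx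
      have h1 : v * q * v⁻¹ * q⁻¹ = 1 := by
        apply hVQ
        · have : v * q * v⁻¹ * q⁻¹ = v * (q * v⁻¹ * q⁻¹) := by group
          rw [this]
          exact V.mul_mem hvV (hVn.conj_mem _ (V.inv_mem hvV) q)
        · exact Subgroup.mul_mem _ ((Subgroup.mem_normalizer_iff.mp hvN q).mp hq)
            (Subgroup.inv_mem _ hq)
      have h2 : v * q = q * v := by
        calc v * q = v * q * v⁻¹ * q⁻¹ * (q * v) := by group
          _ = q * v := by rw [h1, one_mul]
      calc v' * q * v = v' * (q * v) := by group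
        _ = v' * (v * q) := by rw [h2]
        _ = (v' * v) * q := by group
        _ = (v * v') * q := by rw [hVc v' hv' v hvV]
        _ = v * (v' * q) := by group
    have : v ∈ V ⊓ Subgroup.centralizer (X : Set G) := ⟨hvV, hvc⟩
    rwa [hC] at this
  · intro k hk
    obtain ⟨g, hgX, hgn⟩ := hfr k
    obtain ⟨v, hv, q, hq, rfl⟩ := hdec g hgX
    refine ⟨v, hv, q * ((v * q)⁻¹ * k), ⟨?_, ?_⟩, by group⟩
    · exact K.mul_mem (hXK (hQX hq)) (K.mul_mem (K.inv_mem (hXK hgX)) hk)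
    · exact Subgroup.mul_mem _ (Subgroup.le_normalizer hq) hgn

end Cfsg.Agent.Lib.Helper72.BG36b
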