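import Mathlib
import Cfsg.Agent.Lib.Helper80.BTStmt
import Cfsg.Agent.Lib.CT.Wedderburn

set_option autoImplicit false

namespace Cfsg.Agent.Lib.Helper72.BTBND

open Cfsg Cfsg.Agent.Lib.Helper80.BTStmt
open scoped ComplexConjugate

universe u

/-- Every prime lies in a maximal ideal of the ring of algebraic integers
(same proof as `Cfsg.Agent.Lib.CT.Knorr.exists_isPModular`, repeated here to keep the imports
light). -/
theorem exists_modular (p : ℕ) (hp : p.Prime) : ∃ M : Ideal AlgInt, IsPModular p M := by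
  have hne : Ideal.span {(p : AlgInt)} ≠ ⊤ := by
    intro h
    rw [Ideal.span_singleton_eq_top] at h
    obtain ⟨u, hu⟩ := h
    have h1 : ((u⁻¹ : AlgIntˣ) : AlgInt) * (p : AlgInt) = 1 := by
      rw [← hu]
      exact u.inv_mul
    have h2 : (((u⁻¹ : AlgIntˣ) : AlgInt) : ℂ) * (p : ℂ) = 1 := by
      have := congrArg (fun a : AlgInt => (a : ℂ)) h1
      simpa using this
    have hp0 : (p : ℂ) ≠ 0 := Nat.cast_ne_zero.mpr hp.ne_zero
    have h3 : (((u⁻¹ : AlgIntˣ) : AlgInt) : ℂ) = algebraMap ℚ ℂ ((p : ℚ)⁻¹) := by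
      rw [eq_div_of_mul_eq hp0 h2]
      simp
    have h4 : IsIntegral ℤ (algebraMap ℚ ℂ ((p : ℚ)⁻¹)) := by
      rw [← h3]
      exact ((u⁻¹ : AlgIntˣ) : AlgInt).2
    have h5 : IsIntegral ℤ ((p : ℚ)⁻¹) :=
      (isIntegral_algebraMap_iff (algebraMap ℚ ℂ).injective).mp h4
    obtain ⟨n, hn⟩ := IsIntegrallyClosed.isIntegral_iff.mp h5
    have h6 : (n : ℚ) * (p : ℚ) = 1 := by
      have : (algebraMap ℤ ℚ n) = (n : ℚ) := rfl
      rw [← this, hn]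
      exact inv_mul_cancel₀ (Nat.cast_ne_zero.mpr hp.ne_zero)
    have h7 : n * (p : ℤ) = 1 := by exact_mod_cast h6
    have h8 : (p : ℤ) ∣ 1 := Dvd.intro_left n h7
    have h9 : p ∣ 1 := by exact_mod_cast h8
    exact hp.one_lt.ne' (Nat.dvd_one.mp h9)
  obtain ⟨M, hM, hle⟩ := Ideal.exists_le_maximal _ hne
  exact ⟨M, hp, hM, hle (Ideal.mem_span_singleton_self _)⟩

theorem sameBlock_refl {G : Type u} [Group G] (M : Ideal AlgInt) (hM : M.IsMaximal) (χ : G → ℂ) :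
    SameBlock M χ χ := by
  intro g
  refine ⟨0, 1, M.zero_mem, ?_, ?_⟩
  · exact (Ideal.ne_top_iff_one M).mp hM.ne_top
  · simp

theorem main (h1 : CINV.{u}) (h2 : VAN.{u}) (h3 : NIB.{u}) (h4 : BTO.{u}) (h5 : GB.{u}) :
    BND.{u} := by
  classical
  intro G _ _ p b g₀ hH c hXF hYF hT2 hLoc hPow
  obtain ⟨hsimple, hncyc, hp, -, hp2, hcard, hg₀⟩ := hH
  obtain ⟨⟨k, hk⟩, χ₀, hχ₀X, hχ₀nt, a, ha, hχ₀deg⟩ := hPow
  obtain ⟨⟨t, htX, ht1⟩, -⟩ := hXF
  obtain ⟨⟨θ₀, hθ₀⟩, hYfacts⟩ := hYF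
  haveI : Finite (IrrCharacter G) := Cfsg.Agent.Lib.CT.Wedderburn.finite_irrCharacter G
  haveI : Fact p.Prime := ⟨hp⟩
  haveI : Fact (2 : ℕ).Prime := ⟨Nat.prime_two⟩
  have hcardpos : 0 < Nat.card G := Nat.card_pos
  have hg₀pos : 0 < g₀ := by
    rcases Nat.eq_zero_or_pos g₀ with h | h
    · rw [h, mul_zero] at hcard; omega
    · exact h
  have hfe := hT2.2 θ₀ hθ₀
  have hf2 := (hYfacts θ₀ hθ₀).2.2.1
  have hep : c.e + 2 ≤ p := by omega
  have htχ₀ : t ≠ χ₀ := by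
    intro h; apply hχ₀nt; rw [← h]; exact ht1
  have hXfin : c.X.Finite := Set.toFinite _
  have hXcard : hXfin.toFinset.card = c.e := by
    rw [← c.hX, Nat.card_coe_set_eq, Set.ncard_eq_toFinset_card _ hXfin]
  have he2 : 2 ≤ c.e := by
    rw [← hXcard]
    have hsub : ({t, χ₀} : Finset (IrrCharacter G)) ⊆ hXfin.toFinset := by
      intro ψ hψ
      rw [Finset.mem_insert, Finset.mem_singleton] at hψ
      rw [Set.Finite.mem_toFinset]
      rcases hψ with rfl | rfl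
      · exact htX
      · exact hχ₀X
    have h2' := Finset.card_le_card hsub
    rw [Finset.card_pair htχ₀] at h2'
    exact h2'
  rcases Nat.eq_zero_or_pos b with hb0 | hbpos
  · subst hb0
    have h1' : 1 ≤ p := hp.one_lt.le
    have h3' : 1 ≤ c.e - 1 := by omega
    have : 1 * 1 * 1 ≤ p * g₀ * (c.e - 1) := Nat.mul_le_mul (Nat.mul_le_mul h1' hg₀pos) h3'
    simpa using this
  have h2G : 2 ∣ Nat.card G := by
    rw [hcard]
    exact Dvd.dvd.mul_right (Dvd.dvd.mul_left (dvd_pow_self 2 (by omega)) p) g₀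
  obtain ⟨z, hz, hzodd⟩ := h1 h2G
  have hz1 : z ≠ 1 := by
    rintro rfl; rw [orderOf_one] at hz; omega
  have hχ₀z : (χ₀ : G → ℂ) z = 0 := h2 hsimple hncyc χ₀ a ha hχ₀deg z hz1 hzodd
  obtain ⟨M2, hM2⟩ := exists_modular 2 Nat.prime_two
  have hnib : ∀ ψ : IrrCharacter G, Odd (charDegree (ψ : G → ℂ)) →
      ψ ∉ blockOf M2 (χ₀ : G → ℂ) :=
    fun ψ hψ => h3 M2 hM2 χ₀ ψ z hz hzodd hχ₀z hψ
  have htB' : t ∉ blockOf M2 (χ₀ : G → ℂ) := by
    apply hnib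
    rw [ht1]
    have : charDegree (fun _ : G => (1 : ℂ)) = 1 := by
      unfold charDegree; simp
    rw [this]; exact odd_one
  have hYB' : ∀ θ ∈ c.Y, θ ∉ blockOf M2 (χ₀ : G → ℂ) := by
    intro θ hθ
    apply hnib
    exact Nat.not_even_iff_odd.mp (fun h => (hYfacts θ hθ).1 (even_iff_two_dvd.mp h))
  have hχ₀B' : χ₀ ∈ blockOf M2 (χ₀ : G → ℂ) := sameBlock_refl M2 hM2.2.1 _
  have hSfin : (c.X ∩ blockOf M2 (χ₀ : G → ℂ)).Finite := Set.toFinite _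
  have hSmem : ∀ χ, χ ∈ hSfin.toFinset ↔ χ ∈ c.X ∧ χ ∈ blockOf M2 (χ₀ : G → ℂ) := fun χ => by
    rw [Set.Finite.mem_toFinset]; rfl
  have hχ₀S : χ₀ ∈ hSfin.toFinset := (hSmem χ₀).mpr ⟨hχ₀X, hχ₀B'⟩
  have hScard1 : 1 ≤ hSfin.toFinset.card := Finset.card_pos.mpr ⟨χ₀, hχ₀S⟩
  have hScard2 : hSfin.toFinset.card ≤ c.e - 1 := by
    have hsub : hSfin.toFinset ⊆ hXfin.toFinset.erase t := by
      intro χ hχ
      rw [Finset.mem_erase, Set.Finite.mem_toFinset]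
      have := (hSmem χ).mp hχ
      exact ⟨fun h => htB' (h ▸ this.2), this.1⟩
    have := Finset.card_le_card hsub
    rw [Finset.card_erase_of_mem ((Set.Finite.mem_toFinset hXfin).mpr htX), hXcard] at this
    exact this
  have hPcard : Nat.card (c.P : Subgroup G) = p := c.hP
  obtain ⟨x, hxP, hx1⟩ : ∃ x ∈ (c.P : Subgroup G), x ≠ 1 := by
    by_contra hcon
    push Not at hcon
    have : (c.P : Subgroup G) = ⊥ := (Subgroup.eq_bot_iff_forall _).mpr hcon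
    rw [this, Subgroup.card_bot] at hPcard
    exact hp.one_lt.ne hPcard
  have hxord : orderOf x = p := by
    have hd : orderOf x ∣ p := by
      rw [← hPcard]; exact Subgroup.orderOf_dvd_natCard _ hxP
    rcases (Nat.dvd_prime hp).mp hd with h | h
    · exact absurd (orderOf_eq_one_iff.mp h) hx1
    · exact h
  have hpq : ∀ g : G, ¬ p ∣ orderOf g ∨ ¬ 2 ∣ orderOf g := by
    intro g
    by_cases hg : p ∣ orderOf g
    · right
      rw [hLoc.1 g hg]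
      intro h2p
      exact hp2 ((Nat.prime_dvd_prime_iff_eq Nat.prime_two hp).mp h2p).symm
    · left; exact hg
  have hB : IsPBlock c.M (principalBlock c.M G) := ⟨t, by unfold principalBlock; rw [ht1]⟩
  have hB'blk : IsPBlock M2 (blockOf M2 (χ₀ : G → ℂ)) := ⟨χ₀, rfl⟩
  have hbto := h4 p 2 c.M M2 c.hM hM2 hpq (principalBlock c.M G) (blockOf M2 (χ₀ : G → ℂ))
    hB hB'blk x
  have hinter : principalBlock c.M G ∩ blockOf M2 (χ₀ : G → ℂ) =
      (hSfin.toFinset : Set (IrrCharacter G)) := by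
    ext χ
    rw [c.hXY]
    simp only [Set.mem_inter_iff, Set.mem_union, Finset.mem_coe, hSmem]
    constructor
    · rintro ⟨hχ | hχ, hχB⟩
      · exact ⟨hχ, hχB⟩
      · exact absurd hχB (hYB' χ hχ)
    · rintro ⟨hχ, hχB⟩
      exact ⟨Or.inl hχ, hχB⟩
  have hxval : ∀ χ ∈ hSfin.toFinset, (χ : G → ℂ) x = (c.εX χ : ℂ) := by
    intro χ hχ
    have := (c.hεX χ ((hSmem χ).mp hχ).1).2.2 x hxP hx1 1 (Subgroup.one_mem _)
      (by rw [orderOf_one]; intro h; exact hp.one_lt.ne' (Nat.dvd_one.mp h))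
    rwa [mul_one] at this
  have hvan : ∀ y : G, 2 ∣ orderOf y →
      ∑ χ ∈ hSfin.toFinset, (c.εX χ : ℂ) * (χ : G → ℂ) y = 0 := by
    intro y hy
    have h := hbto y (by rw [hxord]) hy
    rw [hinter, finsum_mem_coe_finset] at h
    rw [← h]
    apply Finset.sum_congr rfl
    intro χ hχ
    rw [hxval χ hχ]
    simp
  have h2bG : 2 ^ b ∣ Nat.card G := by
    rw [hcard]; exact Dvd.dvd.mul_right (Dvd.intro_left p rfl) g₀
  have hεS : ∀ χ ∈ hSfin.toFinset, c.εX χ = 1 ∨ c.εX χ = -1 :=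
    fun χ hχ => (c.hεX χ ((hSmem χ).mp hχ).1).1
  obtain ⟨hdvd, hsq⟩ := h5 b h2bG hSfin.toFinset c.εX hεS hvan
  have hDmod : (p : ℤ) ∣ (∑ χ ∈ hSfin.toFinset, c.εX χ * (charDegree (χ : G → ℂ) : ℤ)) -
      (hSfin.toFinset.card : ℤ) := by
    have e1 : (∑ χ ∈ hSfin.toFinset, c.εX χ * (charDegree (χ : G → ℂ) : ℤ)) -
        (hSfin.toFinset.card : ℤ) =
        ∑ χ ∈ hSfin.toFinset, (c.εX χ * (charDegree (χ : G → ℂ) : ℤ) - 1) := by
      rw [Finset.sum_sub_distrib]; simp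
    rw [e1]
    apply Finset.dvd_sum
    intro χ hχ
    have hd := (c.hεX χ ((hSmem χ).mp hχ).1).2.1
    have hd' : (p : ℤ) ∣ (charDegree (χ : G → ℂ) : ℤ) - c.εX χ := Int.modEq_iff_dvd.mp hd.symm
    rcases hεS χ hχ with h | h
    · rw [h] at hd' ⊢; simpa using hd'
    · rw [h] at hd' ⊢
      have e2 : (-1 : ℤ) * (charDegree (χ : G → ℂ) : ℤ) - 1 =
          -((charDegree (χ : G → ℂ) : ℤ) - -1) := by ring
      rw [e2]; exact (dvd_neg).mpr hd'
  have hD0 : (∑ χ ∈ hSfin.toFinset, c.εX χ * (charDegree (χ : G → ℂ) : ℤ)) ≠ 0 := by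
    intro h0
    rw [h0, zero_sub, dvd_neg] at hDmod
    have h7 : p ∣ hSfin.toFinset.card := by exact_mod_cast hDmod
    have := Nat.le_of_dvd (by omega) h7
    omega
  have habs : (2 : ℤ) ^ b ≤ |∑ χ ∈ hSfin.toFinset, c.εX χ * (charDegree (χ : G → ℂ) : ℤ)| :=
    Int.le_of_dvd (abs_pos.mpr hD0) ((dvd_abs _ _).mpr hdvd)
  have hsq' : ((2 : ℤ) ^ b) ^ 2 ≤
      (∑ χ ∈ hSfin.toFinset, c.εX χ * (charDegree (χ : G → ℂ) : ℤ)) ^ 2 := by
    rw [← sq_abs (∑ χ ∈ hSfin.toFinset, c.εX χ * (charDegree (χ : G → ℂ) : ℤ))]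
    exact pow_le_pow_left₀ (by positivity) habs 2
  have hfin : ((2 : ℤ) ^ b) ^ 2 ≤ (Nat.card G : ℤ) * (hSfin.toFinset.card : ℤ) := hsq'.trans hsq
  have hfinN : (2 ^ b) ^ 2 ≤ Nat.card G * hSfin.toFinset.card := by exact_mod_cast hfin
  rw [hcard] at hfinN
  have h6 : (2 ^ b) * (2 ^ b) ≤ (2 ^ b) * (p * g₀ * (c.e - 1)) := by
    calc (2 ^ b) * (2 ^ b) = (2 ^ b) ^ 2 := by ring
      _ ≤ p * 2 ^ b * g₀ * hSfin.toFinset.card := hfinN
      _ ≤ p * 2 ^ b * g₀ * (c.e - 1) := Nat.mul_le_mul_left _ hScard2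
      _ = (2 ^ b) * (p * g₀ * (c.e - 1)) := by ring
  exact Nat.le_of_mul_le_mul_left h6 (by positivity)

end Cfsg.Agent.Lib.Helper72.BTBND
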