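import Mathlib
import Cfsg.Agent.Lib.Helper19.BTGen

set_option autoImplicit false

/-!
S2369 piece UPFIX (third seat, helper72): the fixed cosets of a minimal parabolic subgroup
correspond to the fixed cosets of `B` in the cells that are "up" for it.
-/

namespace Cfsg.Agent.Lib.Helper72.BTUPFIX

open Cfsg.Agent.Lib.Helper19.BTGen

universe u

theorem inCell_mk_iff {G : Type u} [Group G] (B : Subgroup G) {ι : Type} (n : ι → G) (w : ι)
    (g : G) : InCell B n w (QuotientGroup.mk g : G ⧸ B) ↔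
      ∃ b ∈ B, ∃ b' ∈ B, g = b * n w * b' := by
  constructor
  · rintro ⟨b, hb, h⟩
    rw [QuotientGroup.eq] at h
    exact ⟨b, hb, _, h, by group⟩
  · rintro ⟨b, hb, b', hb', rfl⟩
    refine ⟨b, hb, ?_⟩
    rw [QuotientGroup.eq]
    have : (b * n w)⁻¹ * (b * n w * b') = b' := by group
    rw [this]; exact hb'

theorem cell_unique {G : Type u} [Group G] (B : Subgroup G) {ι : Type} (n : ι → G)
    (hD : Disj B n) {w w' : ι} {g : G} (h : ∃ b ∈ B, ∃ b' ∈ B, g = b * n w * b')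
    (h' : ∃ b ∈ B, ∃ b' ∈ B, g = b * n w' * b') : w = w' := by
  obtain ⟨b, hb, c, hc, rfl⟩ := h
  obtain ⟨b', hb', c', hc', h2⟩ := h'
  apply hD w w' (b'⁻¹ * b) (B.mul_mem (B.inv_mem hb') hb) (c * c'⁻¹)
    (B.mul_mem hc (B.inv_mem hc'))
  have : n w' = b'⁻¹ * (b * n w * c) * c'⁻¹ := by rw [h2]; group
  rw [this]; group

theorem main : UpFix.{u} := by
  intro G _ _ B P ι _ _ n s t U a hC hD hP hS hU ht ha
  have hBP : B ≤ P := fun g hg => (hP g).2 (Or.inl hg)
  have hsP : ∀ b ∈ B, ∀ b' ∈ B, b * s * b' ∈ P := fun b hb b' hb' =>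
    (hP _).2 (Or.inr ⟨b, hb, b', hb', rfl⟩)
  have key1 : ∀ w ∈ U, ∀ g : G, (∃ b ∈ B, ∃ b' ∈ B, g = b * n w * b') → ∀ p ∈ P, p ∉ B →
      ∃ b ∈ B, ∃ b' ∈ B, g * p = b * n (t w) * b' := by
    intro w hw g ⟨b, hb, b', hb', hg⟩ p hp hpB
    rcases (hP p).1 hp with h | ⟨c, hc, c', hc', rfl⟩
    · exact absurd h hpB
    · obtain ⟨d, hd, d', hd', h⟩ := hS w hw (b' * c) (B.mul_mem hb' hc)
      refine ⟨b * d, B.mul_mem hb hd, d' * c', B.mul_mem hd' hc', ?_⟩
      rw [hg]
      have : b * n w * b' * (c * s * c') = b * (n w * (b' * c) * s) * c' := by group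
      rw [this, h]; group
  have key2 : ∀ g : G, ∃ p ∈ P, ∃ w ∈ U, ∃ b ∈ B, ∃ b' ∈ B, g * p = b * n w * b' := by
    intro g
    obtain ⟨w, b, hb, b', hb', hg⟩ := hC g
    by_cases hw : w ∈ U
    · exact ⟨1, P.one_mem, w, hw, b, hb, b', hb', by rw [mul_one]; exact hg⟩
    · have htw : t w ∈ U := by
        by_contra h
        exact hw ((hU w).2 h)
      obtain ⟨d, hd, d', hd', h⟩ := hS (t w) htw 1 B.one_mem
      rw [ht w] at h
      refine ⟨(1 * s * (d'⁻¹ * b'))⁻¹,
        P.inv_mem (hsP 1 B.one_mem _ (B.mul_mem (B.inv_mem hd') hb')), t w, htw, b * d⁻¹,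
        B.mul_mem hb (B.inv_mem hd), 1, B.one_mem, ?_⟩
      have hn : n w = d⁻¹ * (n (t w) * 1 * s) * d'⁻¹ := by rw [h]; group
      rw [hg, hn]; group
  have hπ : ∀ (x : G ⧸ B), Subgroup.quotientMapOfLE hBP (a • x) =
      a • Subgroup.quotientMapOfLE hBP x := by
    intro x
    obtain ⟨g, rfl⟩ := QuotientGroup.mk_surjective x
    rfl
  let f : {x : G ⧸ B // a • x = x ∧ ∃ w ∈ U, InCell B n w x} → {y : G ⧸ P // a • y = y} :=
    fun x => ⟨Subgroup.quotientMapOfLE hBP x.1, by rw [← hπ, x.2.1]⟩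
  have hinj : Function.Injective f := by
    rintro ⟨x, hx, w, hw, hxw⟩ ⟨x', hx', w', hw', hxw'⟩ h
    have h1 : Subgroup.quotientMapOfLE hBP x = Subgroup.quotientMapOfLE hBP x' :=
      congrArg Subtype.val h
    apply Subtype.ext
    show x = x'
    obtain ⟨g, rfl⟩ := QuotientGroup.mk_surjective x
    obtain ⟨g', rfl⟩ := QuotientGroup.mk_surjective x'
    rw [Subgroup.quotientMapOfLE_apply_mk, Subgroup.quotientMapOfLE_apply_mk,
      QuotientGroup.eq] at h1
    by_cases hp : g⁻¹ * g' ∈ B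
    · exact QuotientGroup.eq.2 hp
    · exfalso
      have hc := key1 w hw g ((inCell_mk_iff B n w g).1 hxw) _ h1 hp
      rw [mul_inv_cancel_left] at hc
      have := cell_unique B n hD hc ((inCell_mk_iff B n w' g').1 hxw')
      rw [← this] at hw'
      exact (hU w).1 hw hw'
  have hsurj : Function.Surjective f := by
    rintro ⟨y, hy⟩
    obtain ⟨g, rfl⟩ := QuotientGroup.mk_surjective y
    obtain ⟨p, hp, w, hw, hc⟩ := key2 g
    have hfix : a • (QuotientGroup.mk (g * p) : G ⧸ B) = QuotientGroup.mk (g * p) := by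
      show (QuotientGroup.mk (a * (g * p)) : G ⧸ B) = QuotientGroup.mk (g * p)
      rw [QuotientGroup.eq]
      by_contra hq
      have hy' : (QuotientGroup.mk (a * g) : G ⧸ P) = QuotientGroup.mk g := hy
      rw [QuotientGroup.eq] at hy'
      have hqP : (a * (g * p))⁻¹ * (g * p) ∈ P := by
        have : (a * (g * p))⁻¹ * (g * p) = p⁻¹ * ((a * g)⁻¹ * g) * p := by group
        rw [this]
        exact P.mul_mem (P.mul_mem (P.inv_mem hp) hy') hp
      obtain ⟨b, hb, b', hb', hgp⟩ := hc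
      have hc1 : ∃ b ∈ B, ∃ b' ∈ B, a * (g * p) = b * n w * b' :=
        ⟨a * b, B.mul_mem ha hb, b', hb', by rw [hgp]; group⟩
      have hc2 := key1 w hw _ hc1 _ hqP hq
      rw [mul_inv_cancel_left] at hc2
      have := cell_unique B n hD ⟨b, hb, b', hb', hgp⟩ hc2
      have h3 : t w ∉ U := (hU w).1 hw
      rw [← this] at h3
      exact h3 hw
    refine ⟨⟨QuotientGroup.mk (g * p), hfix, w, hw, (inCell_mk_iff B n w _).2 hc⟩, ?_⟩
    apply Subtype.ext
    show Subgroup.quotientMapOfLE hBP (QuotientGroup.mk (g * p)) = QuotientGroup.mk g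
    rw [Subgroup.quotientMapOfLE_apply_mk, QuotientGroup.eq]
    have : (g * p)⁻¹ * g = p⁻¹ := by group
    rw [this]; exact P.inv_mem hp
  exact (Nat.card_congr (Equiv.ofBijective f ⟨hinj, hsurj⟩)).symm

end Cfsg.Agent.Lib.Helper72.BTUPFIX
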