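import Mathlib
import Cfsg.Agent.Lib.Helper96.HallAltStmt

/-!
# S2538 / GC2 (helper96's call): the fibrewise closure of a `π`-subgroup is a `π`-subgroup
-/

set_option autoImplicit false

namespace Cfsg.Agent.Lib.Helper72.HAGC2

open Equiv Cfsg.Agent.Lib.Helper96.HallSymStmt Cfsg.Agent.Lib.Helper96.HallAltStmt

theorem main : Cfsg.Agent.Lib.Helper96.HallAltStmt.GC2 := by
  intro Ω _ _ ι f π K L hK hL hπ p hp hpd
  haveI : Fact p.Prime := ⟨hp⟩
  obtain ⟨h, hh⟩ := exists_prime_orderOf_dvd_card' p hpd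
  have hho : orderOf (h : Perm Ω) = p := by rw [Subgroup.orderOf_coe]; exact hh
  have hne : (h : Perm Ω) ≠ 1 := by
    intro h1
    rw [h1, orderOf_one] at hho
    exact hp.one_lt.ne hho
  obtain ⟨x₀, hx₀⟩ : ∃ x₀, (h : Perm Ω) x₀ ≠ x₀ := by
    by_contra hcon
    push Not at hcon
    exact hne (Perm.ext hcon)
  obtain ⟨g, hgK, hg⟩ := (hL h).mp h.2 (f x₀)
  have hgf : ∀ x, f (g x) = f x := hK hgK
  have key : ∀ (k : ℕ) (x : Ω), f x = f x₀ → ((h : Perm Ω) ^ k) x = (g ^ k) x := by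
    intro k
    induction k with
    | zero => intro x _; simp
    | succ k ih =>
      intro x hx
      rw [pow_succ, pow_succ, Perm.mul_apply, Perm.mul_apply, hg x hx]
      exact ih (g x) (by rw [hgf, hx])
  have hdvd : p ∣ orderOf g := by
    by_contra hnd
    have hcop : Nat.Coprime (orderOf g) p := ((Nat.Prime.coprime_iff_not_dvd hp).mpr hnd).symm
    obtain ⟨m, -, hm⟩ := Nat.exists_mul_mod_eq_one_of_coprime hcop hp.one_lt
    have h1 : (h : Perm Ω) ^ (orderOf g * m) = (h : Perm Ω) := by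
      rw [← pow_mod_orderOf, hho, hm, pow_one]
    have h2 := key (orderOf g * m) x₀ rfl
    rw [h1, pow_mul, pow_orderOf_eq_one, one_pow, Perm.one_apply] at h2
    exact hx₀ h2
  exact hπ p hp (dvd_trans hdvd (Subgroup.orderOf_dvd_natCard K hgK))

end Cfsg.Agent.Lib.Helper72.HAGC2
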