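import Mathlib
import Cfsg.Agent.Lib.Helper96.HallAltStmt

/-!
# S2538 / PD (helper96's call): a solvable permutation group of prime degree `p` containing a
`p`-cycle `c` normalizes `⟨c⟩`.
-/

set_option autoImplicit false

namespace Cfsg.Agent.Lib.Helper72.HAPD

open Equiv Cfsg.Agent.Lib.Helper96.HallSymStmt Cfsg.Agent.Lib.Helper96.HallAltStmt

theorem main : Cfsg.Agent.Lib.Helper96.HallAltStmt.PD' := by
  intro hPD1 hPD2 hPD3 Ω _ _ hp L hsolv c hcL hcyc hsupp g hgL
  classical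
  set p := Fintype.card Ω with hpdef
  -- `L` is transitive
  have hfull : c.support = Finset.univ := Finset.eq_univ_of_card _ hsupp
  have hmov : ∀ x : Ω, c x ≠ x := fun x => by
    have : x ∈ c.support := by rw [hfull]; exact Finset.mem_univ x
    exact Perm.mem_support.mp this
  have htr : Trans L := by
    intro x y
    obtain ⟨i, hi⟩ := hcyc.exists_pow_eq (hmov x) (hmov y)
    exact ⟨c ^ i, pow_mem hcL i, hi⟩
  -- the element `c' : ↥L`
  set c' : ↥L := ⟨c, hcL⟩ with hc'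
  have hoc : orderOf c = p := by rw [hcyc.orderOf, hsupp]
  have hoc' : orderOf c' = p := by
    rw [← hoc, ← Subgroup.orderOf_coe]
  have hc1 : c' ≠ 1 := by
    intro h
    rw [h, orderOf_one] at hoc'
    exact hp.one_lt.ne hoc'
  haveI : Nontrivial ↥L := ⟨⟨c', 1, hc1⟩⟩
  obtain ⟨N₀, hN₀n, hN₀ne, hN₀ab⟩ := hPD1 ↥L hsolv inferInstance
  -- transport to `Perm Ω`
  have hinj : Function.Injective L.subtype := L.subtype_injective
  have hNle : N₀.map L.subtype ≤ L := Subgroup.map_subtype_le N₀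
  have hNnorm : ∀ g ∈ L, ∀ m ∈ N₀.map L.subtype, g * m * g⁻¹ ∈ N₀.map L.subtype := by
    intro g hg m hm
    obtain ⟨m₀, hm₀, rfl⟩ := hm
    exact ⟨⟨g, hg⟩ * m₀ * ⟨g, hg⟩⁻¹, hN₀n.conj_mem m₀ hm₀ ⟨g, hg⟩, rfl⟩
  have hNne : N₀.map L.subtype ≠ ⊥ := by
    intro h
    exact hN₀ne ((Subgroup.map_eq_bot_iff_of_injective N₀ hinj).mp h)
  have hNab : ∀ a ∈ N₀.map L.subtype, ∀ b ∈ N₀.map L.subtype, a * b = b * a := by
    intro a ha b hb
    obtain ⟨a₀, ha₀, rfl⟩ := ha
    obtain ⟨b₀, hb₀, rfl⟩ := hb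
    rw [← map_mul, ← map_mul, hN₀ab a₀ ha₀ b₀ hb₀]
  have htrN : Trans (N₀.map L.subtype) := hPD2 Ω hp L (N₀.map L.subtype) htr hNle hNnorm hNne
  have hcardN : Nat.card ↥N₀ = p := by
    rw [← Subgroup.card_map_of_injective hinj]
    exact hPD3 Ω (N₀.map L.subtype) htrN hp.pos hNab
  -- `p ∤ [L : N₀]`
  have hidx : ¬ p ∣ N₀.index := by
    intro hd
    have h1 : p * p ∣ Nat.card ↥L := by
      rw [← Subgroup.index_mul_card N₀, hcardN]
      exact Nat.mul_dvd_mul_right hd p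
    have h2 : Nat.card ↥L ∣ p.factorial := by
      have h := Subgroup.card_subgroup_dvd_card L
      rw [Nat.card_eq_fintype_card (α := Perm Ω), Fintype.card_perm] at h
      exact h
    have h3 : p * p ∣ p * (p - 1).factorial := by
      have h4 : p.factorial = p * (p - 1).factorial := by
        rw [← Nat.mul_factorial_pred hp.pos.ne']
      rw [← h4]
      exact dvd_trans h1 h2
    have h5 : p ∣ (p - 1).factorial := (Nat.mul_dvd_mul_iff_left hp.pos).mp h3
    have h6 := (Nat.Prime.dvd_factorial hp).mp h5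
    have := hp.pos
    omega
  -- `c' ∈ N₀`
  have hcN : c' ∈ N₀ := by
    have h1 : orderOf (QuotientGroup.mk' N₀ c') ∣ p := by
      rw [← hoc']
      exact orderOf_map_dvd _ c'
    have h2 : orderOf (QuotientGroup.mk' N₀ c') ∣ N₀.index := by
      have := orderOf_dvd_natCard (QuotientGroup.mk' N₀ c')
      rwa [← Subgroup.index_eq_card] at this
    have h3 : orderOf (QuotientGroup.mk' N₀ c') = 1 := by
      rcases (Nat.dvd_prime hp).mp h1 with h | h
      · exact h
      · rw [h] at h2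
        exact absurd h2 hidx
    have h4 := orderOf_eq_one_iff.mp h3
    exact (QuotientGroup.eq_one_iff c').mp h4
  have hzp : Subgroup.zpowers c' = N₀ := by
    apply Subgroup.eq_of_le_of_card_ge
    · rw [Subgroup.zpowers_le]; exact hcN
    · rw [Nat.card_zpowers, hoc', hcardN]
  have hconj : (⟨g, hgL⟩ : ↥L) * c' * (⟨g, hgL⟩ : ↥L)⁻¹ ∈ Subgroup.zpowers c' := by
    rw [hzp]
    exact hN₀n.conj_mem c' hcN ⟨g, hgL⟩
  rw [← mem_powers_iff_mem_zpowers] at hconj
  obtain ⟨k, hk⟩ := hconj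
  refine ⟨k, ?_⟩
  have := congrArg Subtype.val hk
  simpa [hc'] using this.symm

end Cfsg.Agent.Lib.Helper72.HAPD
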