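import Mathlib
import Cfsg.Agent.Lib.Helper42.LieOrdStmt

/-!
Piece [RE] of S2363: the order bounds for the small Ree groups, given their order.
-/

set_option autoImplicit false

namespace Cfsg.Agent.Lib.Helper72.LieOrdRE

open Cfsg.Agent.Lib.Helper42.LieOrdStmt

universe u

theorem main : Cfsg.Agent.Lib.Helper42.LieOrdStmt.ReeStmt.{u} := by
  intro hOrd G _ _ hG
  obtain ⟨K, _, _, m, hm, hK, ⟨e⟩⟩ := hG
  have hcard := hOrd K m hK
  have hGc : Nat.card G = Nat.card ↥(Cfsg.Lie.twistedG2 K (3 ^ m)) := Nat.card_congr e.toEquiv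
  have hq : 2 ≤ 3 ^ (2 * m + 1) := by
    calc 2 ≤ 3 ^ 1 := by norm_num
      _ ≤ 3 ^ (2 * m + 1) := Nat.pow_le_pow_right (by norm_num) (by omega)
  refine (strong_of_formula (G := G) 3 (2 * m + 1) Nat.prime_three 1 3 4
    ((3 ^ (2 * m + 1) - 1) * ((3 ^ (2 * m + 1)) ^ 3 + 1)) ?_ (by norm_num) ?_ ?_ (by norm_num)
    (by norm_num)).2
  · rw [one_mul, hGc, hcard, mul_assoc]
  · intro h
    rcases (Nat.Prime.dvd_mul Nat.prime_three).1 h with h1 | h1
    · have h2 := not_dvd_pow_sub_one Nat.prime_three (2 * m + 1) 1 (by omega) (le_refl 1)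
      rw [pow_one] at h2
      exact h2 h1
    · exact not_dvd_pow_add_one Nat.prime_three (2 * m + 1) 3 (by omega) (by norm_num) h1
  · have h3 := sub_one_mul_add_one_lt (3 ^ (2 * m + 1)) 1 3 hq (by norm_num)
    rw [pow_one] at h3
    exact h3

end Cfsg.Agent.Lib.Helper72.LieOrdRE
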