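import Mathlib
import Cfsg.Agent.Lib.Helper35.M24BlkStmt

/-!
Piece [CONJ11] of S5006: all elements of order 11 of `M24` are conjugate.
-/

set_option autoImplicit false

namespace Cfsg.Agent.Lib.Helper72.M24BlkCONJ11

open Cfsg Cfsg.Agent.Lib.Helper35.M24BlkStmt

/-- if `n` squares `r` then `n ^ j` raises powers of `r` to the `2 ^ j`-th power -/
theorem conj_two_pow {G : Type*} [Group G] (n r : G) (h : n * r * n⁻¹ = r ^ 2) (j k : ℕ) :
    n ^ j * r ^ k * (n ^ j)⁻¹ = r ^ (2 ^ j * k) := by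
  have h1 : ∀ j : ℕ, n ^ j * r * (n ^ j)⁻¹ = r ^ (2 ^ j) := by
    intro j
    induction j with
    | zero => simp
    | succ j ih =>
      calc n ^ (j + 1) * r * (n ^ (j + 1))⁻¹ = n * (n ^ j * r * (n ^ j)⁻¹) * n⁻¹ := by
            rw [pow_succ']; group
        _ = n * r ^ (2 ^ j) * n⁻¹ := by rw [ih]
        _ = (n * r * n⁻¹) ^ (2 ^ j) := (conj_pow).symm
        _ = r ^ (2 ^ (j + 1)) := by rw [h, ← pow_mul, pow_succ']
  calc n ^ j * r ^ k * (n ^ j)⁻¹ = (n ^ j * r * (n ^ j)⁻¹) ^ k := (conj_pow).symm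
    _ = r ^ (2 ^ j * k) := by rw [h1, ← pow_mul]

/-- a conjugate of an element of order `p` that is a power `r ^ k` of an element of order `p`
has `k % p ≠ 0` -/
theorem exp_ne_zero {G : Type*} [Group G] {r g h : G} {p k : ℕ} (hp : 1 < p)
    (hor : orderOf r = p) (hog : orderOf g = p) (hk : h * g * h⁻¹ = r ^ k) : k % p ≠ 0 := by
  intro h0
  have h1 : r ^ k = 1 := by
    rw [← pow_mod_orderOf, hor, h0, pow_zero]
  rw [h1] at hk
  have h2 : g = 1 := by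
    have h3 : g = h⁻¹ * (h * g * h⁻¹) * h := by group
    rw [h3, hk]
    group
  rw [h2, orderOf_one] at hog
  omega

theorem main (hSyl : Syl) : Conj11 := by
  intro r n hr hn hor hnr g hg hog
  obtain ⟨h, hh, k, hk⟩ := hSyl 11 (by norm_num) (by norm_num) r g hr hg hor hog
  have hk0 : k % 11 ≠ 0 := exp_ne_zero (by norm_num) hor hog hk
  have key : ∀ k0 : ℕ, k0 < 11 → k0 ≠ 0 → ∃ j, j < 10 ∧ (2 ^ j * k0) % 11 = 1 := by decide
  obtain ⟨j, -, hj⟩ := key (k % 11) (Nat.mod_lt _ (by norm_num)) hk0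
  have hj' : (2 ^ j * k) % 11 = 1 := by
    have h1 : 2 ^ j * (k % 11) ≡ 2 ^ j * k [MOD 11] := Nat.ModEq.mul_left _ (Nat.mod_modEq k 11)
    rw [← hj]
    exact h1.symm
  refine ⟨n ^ j * h, M24.mul_mem (M24.pow_mem hn j) hh, ?_⟩
  have e : n ^ j * h * g * (n ^ j * h)⁻¹ = n ^ j * (h * g * h⁻¹) * (n ^ j)⁻¹ := by group
  rw [e, hk, conj_two_pow n r hnr j k, ← pow_mod_orderOf, hor, hj', pow_one]

end Cfsg.Agent.Lib.Helper72.M24BlkCONJ11
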