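import Mathlib
import Cfsg.Agent.Lib.Helper35.M24BlkStmt
import Cfsg.Agent.Lib.Helper72.M24BlkCONJ11

/-!
Piece [CONJ23] of S5006: elements of order 23 of `M24` are conjugate to `r` or to `r⁻¹`.
-/

set_option autoImplicit false

namespace Cfsg.Agent.Lib.Helper72.M24BlkCONJ23

open Cfsg Cfsg.Agent.Lib.Helper35.M24BlkStmt Cfsg.Agent.Lib.Helper72.M24BlkCONJ11

theorem main (hSyl : Syl) : Conj23 := by
  intro r n hr hn hor hnr g hg hog
  obtain ⟨h, hh, k, hk⟩ := hSyl 23 (by norm_num) (by norm_num) r g hr hg hor hog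
  have hk0 : k % 23 ≠ 0 := exp_ne_zero (by norm_num) hor hog hk
  have key : ∀ k0 : ℕ, k0 < 23 → k0 ≠ 0 →
      ∃ j, j < 11 ∧ ((2 ^ j * k0) % 23 = 1 ∨ (2 ^ j * k0) % 23 = 22) := by decide
  obtain ⟨j, -, hj⟩ := key (k % 23) (Nat.mod_lt _ (by norm_num)) hk0
  have h1 : (2 ^ j * (k % 23)) % 23 = (2 ^ j * k) % 23 :=
    Nat.ModEq.mul_left _ (Nat.mod_modEq k 23)
  rw [h1] at hj
  refine ⟨n ^ j * h, M24.mul_mem (M24.pow_mem hn j) hh, ?_⟩
  have e : n ^ j * h * g * (n ^ j * h)⁻¹ = n ^ j * (h * g * h⁻¹) * (n ^ j)⁻¹ := by group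
  rw [e, hk, conj_two_pow n r hnr j k, ← pow_mod_orderOf, hor]
  rcases hj with hj | hj
  · left
    rw [hj, pow_one]
  · right
    rw [hj, eq_inv_iff_mul_eq_one, ← pow_succ]
    have h2 := pow_orderOf_eq_one r
    rw [hor] at h2
    exact h2

end Cfsg.Agent.Lib.Helper72.M24BlkCONJ23
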