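-- S5006 / EVAL: soundness of the kernel evaluator `labE` (core part, explicit statement).
import Mathlib
import Cfsg.Agent.Lib.Helper3.M24Blk
import Cfsg.Agent.Lib.Helper7.M24Mem

set_option autoImplicit false

namespace Cfsg.Agent.Lib.Helper72.M24EVALa

open Cfsg Cfsg.Agent.Lib.Helper7.GolayBase Cfsg.Agent.Lib.Helper7.GolayCode
  Cfsg.Agent.Lib.Helper7.GolayPerm Cfsg.Agent.Lib.Helper35.PermTab
  Cfsg.Agent.Lib.Helper3.M24Blk
open scoped Pointwise

/-! ### Packed tables -/

theorem dg_eq (P i : Nat) : dg P i = P / 2 ^ (5 * i) % 32 := by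
  have h : dg P i = (P >>> (5 * i)) &&& (2 ^ 5 - 1) := rfl
  rw [h, Nat.and_two_pow_sub_one_eq_mod, Nat.shiftRight_eq_div_pow]

theorem dg_pk (l : List Nat) (hl : ∀ x ∈ l, x < 32) (i : Nat) : dg (pk l) i = l.getD i 0 := by
  induction l generalizing i with
  | nil => simp [dg_eq, pk]
  | cons x l ih =>
    have hx : x < 32 := hl x List.mem_cons_self
    have hpk : pk (x :: l) = x + 32 * pk l := rfl
    cases i with
    | zero =>
      rw [dg_eq, hpk]
      simp
      omega
    | succ i =>
      have h1 : dg (pk (x :: l)) (i + 1) = dg (pk l) i := by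
        rw [dg_eq, dg_eq, hpk]
        have : (x + 32 * pk l) / 2 ^ (5 * (i + 1)) = pk l / 2 ^ (5 * i) := by
          rw [show 5 * (i + 1) = 5 + 5 * i by ring, pow_add, ← Nat.div_div_eq_div_mul]
          congr 1
          omega
        rw [this]
      rw [h1, ih (fun y hy => hl y (List.mem_cons_of_mem _ hy))]
      simp

theorem tab_lt (g : Equiv.Perm GolayPt) : ∀ x ∈ tab g, x < 32 := by
  intro x hx
  simp only [tab, List.mem_map] at hx
  obtain ⟨i, _, rfl⟩ := hx
  exact lt_trans (idx_lt _) (by norm_num)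

theorem dg_pkP (g : Equiv.Perm GolayPt) (p : GolayPt) : dg (pkP g) (idx p) = idx (g p) := by
  unfold pkP
  rw [dg_pk _ (tab_lt g)]
  exact (rep_tab g).2 p

theorem stp_pkP (u s : Equiv.Perm GolayPt) (p : GolayPt) :
    stp (pkP u) (pkP s) (idx p) = idx ((u * s) p) := by
  unfold stp
  rw [dg_pkP, dg_pkP]
  rfl

/-! ### Unfolding lemmas -/

theorem olen_zero (U S x0 x c : Nat) : olen U S x0 0 x c = 0 := rfl

theorem olen_succ (U S x0 n x c : Nat) : olen U S x0 (n + 1) x c =
    cond (Nat.beq (stp U S x) x0) (Nat.succ c) (olen U S x0 n (stp U S x) (Nat.succ c)) := rfl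

theorem orb_zero (U S x0 x : Nat) : orb U S x0 0 x = [99] := rfl

theorem orb_succ (U S x0 n x : Nat) : orb U S x0 (n + 1) x =
    cond (Nat.beq (stp U S x) x0) [x] (x :: orb U S x0 n (stp U S x)) := rfl

theorem mskL_nil (m : Nat) : mskL [] m = m := rfl

theorem mskL_cons (x : Nat) (l : List Nat) (m : Nat) :
    mskL (x :: l) m = mskL l (m ||| (1 <<< x)) := rfl

theorem lenV_nil (c : Nat) : lenV [] c = c := rfl

theorem lenV_cons (x : Nat) (l : List Nat) (c : Nat) :
    lenV (x :: l) c = cond (Nat.blt x 24) (lenV l (Nat.succ c)) 0 := rfl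

theorem cycs_zero (U S m : Nat) : cycs U S 0 m = [[99]] := rfl

theorem cycs_succ (U S n m : Nat) : cycs U S (n + 1) m =
    cond (Nat.beq m 16777215) []
      (orb U S (lowz m) 24 (lowz m) :: cycs U S n (mskL (orb U S (lowz m) 24 (lowz m)) m)) := by
  show cond _ [] (cycA U S (cycs U S n) m (lowz m)) = _
  unfold cycA cycB
  rw [frc_eq]

theorem lcmC_nil (c : Nat) : lcmC [] c = c := rfl

theorem lcmC_cons (O : List Nat) (cs : List (List Nat)) (c : Nat) :
    lcmC (O :: cs) c = lcmC cs (Nat.lcm c (lenV O 0)) := rfl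

theorem beq_true {a b : Nat} (h : a = b) : Nat.beq a b = true := by
  subst h; exact Nat.beq_refl a

theorem beq_false {a b : Nat} (h : a ≠ b) : Nat.beq a b = false := by
  cases hb : Nat.beq a b with
  | false => rfl
  | true => exact absurd (Nat.eq_of_beq_eq_true hb) h

/-! ### Bit masks and lengths -/

theorem testBit_mskL (l : List Nat) (m i : Nat) :
    (mskL l m).testBit i = (m.testBit i || decide (i ∈ l)) := by
  induction l generalizing m with
  | nil => simp [mskL_nil]
  | cons x l ih =>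
    rw [mskL_cons, ih, Nat.testBit_or, Nat.one_shiftLeft, Nat.testBit_two_pow]
    by_cases hx : x = i
    · simp [hx]
    · have hx' : ¬ i = x := fun h => hx h.symm
      simp [hx, hx']

theorem lenV_pos (l : List Nat) (c : Nat) (h : lenV l c ≠ 0) :
    (∀ x ∈ l, x < 24) ∧ lenV l c = c + l.length := by
  induction l generalizing c with
  | nil => exact ⟨by simp, rfl⟩
  | cons x l ih =>
    rw [lenV_cons] at h ⊢
    by_cases hx : x < 24
    · have hb : Nat.blt x 24 = true := by rw [Nat.blt_eq]; exact hx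
      rw [hb, cond_true] at h ⊢
      obtain ⟨h1, h2⟩ := ih _ h
      refine ⟨?_, ?_⟩
      · intro y hy
        rcases List.mem_cons.mp hy with rfl | hy
        · exact hx
        · exact h1 y hy
      · rw [h2, List.length_cons]; omega
    · have hb : Nat.blt x 24 = false := by
        cases hb : Nat.blt x 24 with
        | false => rfl
        | true => rw [Nat.blt_eq] at hb; exact absurd hb hx
      rw [hb, cond_false] at h
      exact absurd rfl h

theorem lenV_of_lt (l : List Nat) (c : Nat) (h : ∀ x ∈ l, x < 24) : lenV l c = c + l.length := by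
  induction l generalizing c with
  | nil => rfl
  | cons x l ih =>
    have hx : x < 24 := h x List.mem_cons_self
    have hb : Nat.blt x 24 = true := by rw [Nat.blt_eq]; exact hx
    rw [lenV_cons, hb, cond_true, ih _ (fun y hy => h y (List.mem_cons_of_mem _ hy)),
      List.length_cons]
    omega

/-! ### lcm of the orbit lengths -/

theorem lcmC_ne_zero (cs : List (List Nat)) (c : Nat) (h : lcmC cs c ≠ 0) :
    c ≠ 0 ∧ ∀ O ∈ cs, lenV O 0 ≠ 0 := by
  induction cs generalizing c with
  | nil => exact ⟨h, by simp⟩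
  | cons O cs ih =>
    rw [lcmC_cons] at h
    obtain ⟨h1, h2⟩ := ih _ h
    have hc : c ≠ 0 := fun hc => h1 (by rw [hc]; exact Nat.lcm_zero_left _)
    have hO : lenV O 0 ≠ 0 := fun hc => h1 (by rw [hc]; exact Nat.lcm_zero_right _)
    refine ⟨hc, ?_⟩
    intro O' hO'
    rcases List.mem_cons.mp hO' with rfl | hO'
    · exact hO
    · exact h2 O' hO'

theorem dvd_lcmC (cs : List (List Nat)) (c : Nat) :
    c ∣ lcmC cs c ∧ ∀ O ∈ cs, lenV O 0 ∣ lcmC cs c := by
  induction cs generalizing c with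
  | nil => exact ⟨dvd_rfl, by simp⟩
  | cons O cs ih =>
    rw [lcmC_cons]
    obtain ⟨h1, h2⟩ := ih (Nat.lcm c (lenV O 0))
    refine ⟨dvd_trans (Nat.dvd_lcm_left _ _) h1, ?_⟩
    intro O' hO'
    rcases List.mem_cons.mp hO' with rfl | hO'
    · exact dvd_trans (Nat.dvd_lcm_right _ _) h1
    · exact h2 O' hO'

theorem lcmC_dvd (cs : List (List Nat)) (c N : Nat) (hc : c ∣ N)
    (h : ∀ O ∈ cs, lenV O 0 ∣ N) : lcmC cs c ∣ N := by
  induction cs generalizing c with
  | nil => exact hc
  | cons O cs ih =>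
    rw [lcmC_cons]
    exact ih _ (Nat.lcm_dvd hc (h O List.mem_cons_self))
      (fun O' hO' => h O' (List.mem_cons_of_mem _ hO'))

/-! ### Periods -/

theorem pow_mul_apply {g : Equiv.Perm GolayPt} {q : GolayPt} {k : Nat} (hk : (g ^ k) q = q)
    (n : Nat) : (g ^ (k * n)) q = q := by
  induction n with
  | zero => simp
  | succ n ih => rw [Nat.mul_succ, pow_add, Equiv.Perm.mul_apply, hk, ih]

theorem pow_mod_apply {g : Equiv.Perm GolayPt} {q : GolayPt} {k : Nat} (hk : (g ^ k) q = q)
    (n : Nat) : (g ^ n) q = (g ^ (n % k)) q := by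
  conv_lhs => rw [← Nat.mod_add_div n k, pow_add, Equiv.Perm.mul_apply, pow_mul_apply hk]

theorem period_dvd {g : Equiv.Perm GolayPt} {q : GolayPt} {k N : Nat} (hk0 : 0 < k)
    (hk : (g ^ k) q = q) (hmin : ∀ j, 0 < j → j < k → (g ^ j) q ≠ q) (hN : (g ^ N) q = q) :
    k ∣ N := by
  apply Nat.dvd_of_mod_eq_zero
  by_contra h
  exact hmin (N % k) (Nat.pos_of_ne_zero h) (Nat.mod_lt _ hk0) (by rw [← pow_mod_apply hk]; exact hN)

/-- `O` lists a full cycle of `g`, by indices. -/
def IsCyc (g : Equiv.Perm GolayPt) (O : List Nat) : Prop :=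
  ∃ (q : GolayPt) (k : Nat), 0 < k ∧ O = (List.range k).map (fun j => idx ((g ^ j) q)) ∧
    (g ^ k) q = q ∧ ∀ j, 0 < j → j < k → (g ^ j) q ≠ q

theorem map_range_lt (g : Equiv.Perm GolayPt) (q : GolayPt) (k : Nat) :
    ∀ x ∈ (List.range k).map (fun j => idx ((g ^ j) q)), x < 24 := by
  intro x hx
  simp only [List.mem_map] at hx
  obtain ⟨j, _, rfl⟩ := hx
  exact idx_lt _

theorem lenV_map_range (g : Equiv.Perm GolayPt) (q : GolayPt) (k : Nat) :
    lenV ((List.range k).map (fun j => idx ((g ^ j) q))) 0 = k := by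
  rw [lenV_of_lt _ _ (map_range_lt g q k)]
  simp

/-! ### Semantics of `olen`, `orb`, `cycs` -/

section Sem

variable {U S : Nat} {g : Equiv.Perm GolayPt}

theorem olen_spec (hst : ∀ p : GolayPt, stp U S (idx p) = idx (g p)) (p0 : GolayPt) :
    ∀ (fuel : Nat) (p : GolayPt) (c : Nat), olen U S (idx p0) fuel (idx p) c ≠ 0 →
    ∃ k, 0 < k ∧ olen U S (idx p0) fuel (idx p) c = c + k ∧ (g ^ k) p = p0 ∧
      ∀ j, 0 < j → j < k → (g ^ j) p ≠ p0 := by
  intro fuel
  induction fuel with
  | zero => intro p c h; exact absurd rfl h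
  | succ n ih =>
    intro p c h
    rw [olen_succ, hst] at h ⊢
    by_cases hb : idx (g p) = idx p0
    · rw [beq_true hb, cond_true]
      refine ⟨1, Nat.one_pos, rfl, ?_, ?_⟩
      · rw [pow_one]; exact idx_injective hb
      · intro j hj hj'; omega
    · rw [beq_false hb, cond_false] at h ⊢
      obtain ⟨k, hk, he, hg, hmin⟩ := ih (g p) (c + 1) h
      refine ⟨k + 1, Nat.succ_pos _, ?_, ?_, ?_⟩
      · rw [he]; omega
      · rw [pow_succ, Equiv.Perm.mul_apply]; exact hg
      · intro j hj hj'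
        obtain ⟨j', rfl⟩ : ∃ j', j = j' + 1 := ⟨j - 1, by omega⟩
        rw [pow_succ, Equiv.Perm.mul_apply]
        rcases Nat.eq_zero_or_pos j' with h0 | h0
        · subst h0
          rw [pow_zero, Equiv.Perm.one_apply]
          intro e; exact hb (congrArg idx e)
        · exact hmin j' h0 (by omega)

theorem orb_spec (hst : ∀ p : GolayPt, stp U S (idx p) = idx (g p)) (p0 : GolayPt) :
    ∀ (fuel : Nat) (p : GolayPt), (∀ y ∈ orb U S (idx p0) fuel (idx p), y < 24) →
    ∃ k, 0 < k ∧ orb U S (idx p0) fuel (idx p) = (List.range k).map (fun j => idx ((g ^ j) p)) ∧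
      (g ^ k) p = p0 ∧ ∀ j, 0 < j → j < k → (g ^ j) p ≠ p0 := by
  intro fuel
  induction fuel with
  | zero =>
    intro p h
    have := h 99 (by rw [orb_zero]; exact List.mem_singleton_self _)
    omega
  | succ n ih =>
    intro p h
    rw [orb_succ, hst] at h ⊢
    by_cases hb : idx (g p) = idx p0
    · rw [beq_true hb, cond_true]
      refine ⟨1, Nat.one_pos, by simp, ?_, ?_⟩
      · rw [pow_one]; exact idx_injective hb
      · intro j hj hj'; omega
    · rw [beq_false hb, cond_false] at h ⊢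
      obtain ⟨k, hk, he, hg, hmin⟩ := ih (g p) (fun y hy => h y (List.mem_cons_of_mem _ hy))
      refine ⟨k + 1, Nat.succ_pos _, ?_, ?_, ?_⟩
      · rw [he, List.range_succ_eq_map, List.map_cons, List.map_map]
        congr 1
      · rw [pow_succ, Equiv.Perm.mul_apply]; exact hg
      · intro j hj hj'
        obtain ⟨j', rfl⟩ : ∃ j', j = j' + 1 := ⟨j - 1, by omega⟩
        rw [pow_succ, Equiv.Perm.mul_apply]
        rcases Nat.eq_zero_or_pos j' with h0 | h0
        · subst h0
          rw [pow_zero, Equiv.Perm.one_apply]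
          intro e; exact hb (congrArg idx e)
        · exact hmin j' h0 (by omega)

theorem mem_orb_succ (x0 n x : Nat) : x ∈ orb U S x0 (n + 1) x := by
  rw [orb_succ]
  cases Nat.beq (stp U S x) x0 <;> simp

theorem cycs_spec (hst : ∀ p : GolayPt, stp U S (idx p) = idx (g p)) :
    ∀ (fuel m : Nat), (∀ O ∈ cycs U S fuel m, lenV O 0 ≠ 0) →
    (∀ O ∈ cycs U S fuel m, IsCyc g O) ∧
      ∀ i, i < 24 → m.testBit i = true ∨ ∃ O ∈ cycs U S fuel m, i ∈ O := by
  intro fuel
  induction fuel with
  | zero =>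
    intro m h
    exact absurd rfl (h [99] (by rw [cycs_zero]; exact List.mem_singleton_self _))
  | succ n ih =>
    intro m h
    rw [cycs_succ] at h ⊢
    by_cases hm : m = 16777215
    · rw [beq_true hm, cond_true]
      refine ⟨by simp, fun i hi => Or.inl ?_⟩
      rw [hm]; exact full_testBit hi
    · rw [beq_false hm, cond_false] at h ⊢
      have hO := (lenV_pos _ _ (h _ List.mem_cons_self)).1
      have hx0 : lowz m < 24 := hO _ (mem_orb_succ _ _ _)
      have hidx : idx (pt (lowz m)) = lowz m := idx_pt hx0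
      have hO' : ∀ y ∈ orb U S (idx (pt (lowz m))) 24 (idx (pt (lowz m))), y < 24 := by
        rw [hidx]; exact hO
      obtain ⟨k, hk, he, hret, hmin⟩ := orb_spec hst (pt (lowz m)) 24 (pt (lowz m)) hO'
      rw [hidx] at he
      obtain ⟨ih1, ih2⟩ := ih _ (fun O hOm => h O (List.mem_cons_of_mem _ hOm))
      refine ⟨?_, ?_⟩
      · intro O hOm
        rcases List.mem_cons.mp hOm with rfl | hOm
        · exact ⟨pt (lowz m), k, hk, he, hret, hmin⟩
        · exact ih1 O hOm
      · intro i hi
        rcases ih2 i hi with h1 | ⟨O, hOm, hiO⟩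
        · rw [testBit_mskL, Bool.or_eq_true] at h1
          rcases h1 with h1 | h1
          · exact Or.inl h1
          · exact Or.inr ⟨_, List.mem_cons_self, by simpa using h1⟩
        · exact Or.inr ⟨O, List.mem_cons_of_mem _ hOm, hiO⟩

end Sem

/-! ### The order from the cycles -/

theorem order_eq {g : Equiv.Perm GolayPt} (cs : List (List Nat)) (h1 : ∀ O ∈ cs, IsCyc g O)
    (h2 : ∀ i, i < 24 → ∃ O ∈ cs, i ∈ O) : orderOf g = lcmC cs 1 := by
  apply Nat.dvd_antisymm
  · apply orderOf_dvd_of_pow_eq_one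
    ext p
    obtain ⟨O, hO, hp⟩ := h2 (idx p) (idx_lt p)
    obtain ⟨q, k, hk, he, hret, hmin⟩ := h1 O hO
    rw [he, List.mem_map] at hp
    obtain ⟨j, _, hj⟩ := hp
    have hpq : p = (g ^ j) q := (idx_injective hj).symm
    have hdvd : k ∣ lcmC cs 1 := by
      have := (dvd_lcmC cs 1).2 O hO
      rwa [he, lenV_map_range] at this
    obtain ⟨t, ht⟩ := hdvd
    rw [Equiv.Perm.one_apply, hpq, ← Equiv.Perm.mul_apply, pow_mul_comm, Equiv.Perm.mul_apply, ht,
      pow_mul_apply hret]
  · apply lcmC_dvd _ _ _ (one_dvd _)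
    intro O hO
    obtain ⟨q, k, hk, he, hret, hmin⟩ := h1 O hO
    rw [he, lenV_map_range]
    exact period_dvd hk hret hmin (by rw [pow_orderOf_eq_one]; rfl)

/-! ### The octad test -/

theorem selMask_list {g : Equiv.Perm GolayPt} (O S : List Nat) (q : GolayPt) (k : Nat)
    (hO : O = (List.range k).map (fun j => idx ((g ^ j) q))) (hS : ∀ j ∈ S, j < k) :
    S.map (fun j => O.getD j 99) = S.map (fun j => idx ((g ^ j) q)) := by
  apply List.map_congr_left
  intro j hj
  have := hS j hj
  simp [hO, List.getD_eq_getElem?_getD, this]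

theorem mk_selMask {g : Equiv.Perm GolayPt} (O S : List Nat) (q : GolayPt) (k : Nat)
    (hO : O = (List.range k).map (fun j => idx ((g ^ j) q))) (hS : ∀ j ∈ S, j < k) :
    mk (selMask O S) = S.toFinset.image (fun j => (g ^ j) q) := by
  ext p
  rw [mem_mk]
  unfold selMask
  rw [testBit_mskL, selMask_list O S q k hO hS]
  simp only [Nat.zero_testBit, Bool.false_or, decide_eq_true_eq, List.mem_map, Finset.mem_image,
    List.mem_toFinset]
  constructor
  · rintro ⟨j, hj, e⟩
    exact ⟨j, hj, idx_injective e⟩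
  · rintro ⟨j, hj, e⟩
    exact ⟨j, hj, by rw [e]⟩

theorem selMask_lt {g : Equiv.Perm GolayPt} (O S : List Nat) (q : GolayPt) (k : Nat)
    (hO : O = (List.range k).map (fun j => idx ((g ^ j) q))) (hS : ∀ j ∈ S, j < k) :
    selMask O S < 2 ^ 24 := by
  apply Nat.lt_pow_two_of_testBit
  intro i hi
  unfold selMask
  rw [testBit_mskL, selMask_list O S q k hO hS]
  simp only [Nat.zero_testBit, Bool.false_or, decide_eq_false_iff_not, List.mem_map, not_exists,
    not_and]
  intro j _ e
  have := idx_lt ((g ^ j) q)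
  omega

theorem qa_iff {g : Equiv.Perm GolayPt} (hg : g ∈ M24) (cs : List (List Nat))
    (h1 : ∀ O ∈ cs, IsCyc g O) (h2 : ∀ i, i < 24 → ∃ O ∈ cs, i ∈ O) (O : List Nat)
    (hf : cs.filter (fun O => Nat.ble 8 (lenV O 0)) = [O]) (S : List Nat)
    (hS : ∀ j ∈ S, j < O.length) (hS0 : S ≠ []) :
    QA S.toFinset g ↔ inCode (selMask O S) = true := by
  have hOm : O ∈ cs.filter (fun O => Nat.ble 8 (lenV O 0)) := by
    rw [hf]; exact List.mem_singleton_self _
  have hOcs : O ∈ cs := (List.mem_filter.mp hOm).1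
  have huniq : ∀ O' ∈ cs, 8 ≤ lenV O' 0 → O' = O := by
    intro O' hO' h8
    have : O' ∈ cs.filter (fun O => Nat.ble 8 (lenV O 0)) :=
      List.mem_filter.mpr ⟨hO', by rw [Nat.ble_eq]; exact h8⟩
    rw [hf] at this
    exact List.mem_singleton.mp this
  constructor
  · rintro ⟨p, hp⟩
    obtain ⟨O', hO', hpO'⟩ := h2 (idx p) (idx_lt p)
    obtain ⟨q, k, hk, he, hret, hmin⟩ := h1 O' hO'
    have hlen : lenV O' 0 = k := by rw [he, lenV_map_range]
    have hlen' : O'.length = k := by rw [he]; simp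
    rw [he, List.mem_map] at hpO'
    obtain ⟨m, _, hm⟩ := hpO'
    have hpq : p = (g ^ m) q := (idx_injective hm).symm
    have himg : S.toFinset.image (fun j => (g ^ j) p) =
        (g ^ m) • S.toFinset.image (fun j => (g ^ j) q) := by
      rw [Cfsg.Agent.Lib.Helper7.M24Mem.smul_finset_def, Finset.image_image]
      apply Finset.image_congr
      intro j _
      show (g ^ j) p = (g ^ m) ((g ^ j) q)
      rw [hpq, ← Equiv.Perm.mul_apply, ← Equiv.Perm.mul_apply, pow_mul_comm]
    by_cases h8 : 8 ≤ lenV O' 0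
    · have hOO := huniq O' hO' h8
      subst hOO
      have hS' : ∀ j ∈ S, j < k := fun j hj => by rw [← hlen']; exact hS j hj
      have hmem : S.toFinset.image (fun j => (g ^ j) q) ∈
          supports (golayCode : Set (GolayPt → ZMod 2)) := by
        have h3 : (g ^ m)⁻¹ ∈ M24 := Subgroup.inv_mem _ (Subgroup.pow_mem _ hg m)
        have h4 := Cfsg.Agent.Lib.Helper7.M24Mem.smul_mem_supports h3 hp
        rw [himg, inv_smul_smul] at h4
        exact h4
      rw [← mk_selMask O' S q k he hS'] at hmem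
      obtain ⟨c, hc, hcm⟩ := (mem_supports_iff _).mp hmem
      have := mk_injOn (codeList_lt c hc) (selMask_lt O' S q k he hS') hcm
      rw [← this]
      exact inCode_complete c hc
    · exfalso
      have hk7 : k ≤ 7 := by omega
      obtain ⟨c, hc, hcm⟩ := (mem_supports_iff _).mp hp
      have hcard : (S.toFinset.image (fun j => (g ^ j) p)).card = popc c := by
        rw [← hcm, card_mk]
      have hsub : S.toFinset.image (fun j => (g ^ j) p) ⊆
          (Finset.range k).image (fun j => (g ^ j) q) := by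
        intro x hx
        rw [Finset.mem_image] at hx ⊢
        obtain ⟨j, _, rfl⟩ := hx
        refine ⟨(j + m) % k, Finset.mem_range.mpr (Nat.mod_lt _ hk), ?_⟩
        rw [← pow_mod_apply hret, hpq, ← Equiv.Perm.mul_apply, ← pow_add]
      have hle : (S.toFinset.image (fun j => (g ^ j) p)).card ≤ 7 := by
        refine le_trans (Finset.card_le_card hsub) (le_trans Finset.card_image_le ?_)
        rw [Finset.card_range]; exact hk7
      have hpos : 0 < (S.toFinset.image (fun j => (g ^ j) p)).card := by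
        rw [Finset.card_pos]
        obtain ⟨j, hj⟩ := List.exists_mem_of_ne_nil S hS0
        exact ⟨(g ^ j) p, Finset.mem_image.mpr ⟨j, List.mem_toFinset.mpr hj, rfl⟩⟩
      rcases weights c hc with h | h | h | h | h <;> omega
  · intro hin
    obtain ⟨q, k, hk, he, hret, hmin⟩ := h1 O hOcs
    have hlen' : O.length = k := by rw [he]; simp
    have hS' : ∀ j ∈ S, j < k := fun j hj => by rw [← hlen']; exact hS j hj
    refine ⟨q, ?_⟩
    rw [← mk_selMask O S q k he hS']
    exact mk_mem_supports (inCode_sound hin)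

/-! ### The evaluator -/

theorem labE_eq (U S : Nat) : labE U S =
    if olen U S 0 24 0 0 = 0 then 9
    else if quick (olen U S 0 24 0 0) = true then labFull U S else 7 := by
  unfold labE
  by_cases h0 : olen U S 0 24 0 0 = 0
  · rw [if_pos h0, beq_true h0, cond_true]
  · rw [if_neg h0, beq_false h0, cond_false]
    cases hq : quick (olen U S 0 24 0 0) <;> simp

theorem labG_eq (cs : List (List Nat)) (n : Nat) : labG cs n =
    if n = 11 then 0 else if n = 15 then qaE cs S15 1 else if n = 21 then qaE cs S21 3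
    else if n = 23 then qaE cs S23 5 else if n = 0 then 9 else 7 := by
  unfold labG
  by_cases h11 : n = 11
  · rw [if_pos h11, beq_true h11, cond_true]
  rw [if_neg h11, beq_false h11, cond_false]
  by_cases h15 : n = 15
  · rw [if_pos h15, beq_true h15, cond_true]
  rw [if_neg h15, beq_false h15, cond_false]
  by_cases h21 : n = 21
  · rw [if_pos h21, beq_true h21, cond_true]
  rw [if_neg h21, beq_false h21, cond_false]
  by_cases h23 : n = 23
  · rw [if_pos h23, beq_true h23, cond_true]
  rw [if_neg h23, beq_false h23, cond_false]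
  by_cases h0 : n = 0
  · rw [if_pos h0, beq_true h0, cond_true]
  rw [if_neg h0, beq_false h0, cond_false]

theorem qaE_spec (cs : List (List Nat)) (S : List Nat) (b v : Nat) (h : qaE cs S b = v)
    (hv : v ≤ 7) : ∃ O, cs.filter (fun O => Nat.ble 8 (lenV O 0)) = [O] ∧
      ((inCode (selMask O S) = true ∧ v = b) ∨ (inCode (selMask O S) = false ∧ v = b + 1)) := by
  unfold qaE at h
  rcases hf : cs.filter (fun O => Nat.ble 8 (lenV O 0)) with _ | ⟨O, _ | ⟨O', t⟩⟩
  · rw [hf] at h; simp at h; omega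
  · rw [hf] at h
    have h' : cond (inCode (selMask O S)) b (Nat.succ b) = v := h
    refine ⟨O, rfl, ?_⟩
    cases hc : inCode (selMask O S) with
    | true => rw [hc] at h'; exact Or.inl ⟨rfl, h'.symm⟩
    | false => rw [hc] at h'; exact Or.inr ⟨rfl, h'.symm⟩
  · rw [hf] at h; simp at h; omega

theorem qa_case {g : Equiv.Perm GolayPt} (hg : g ∈ M24) (cs : List (List Nat))
    (h1 : ∀ O ∈ cs, IsCyc g O) (h2 : ∀ i, i < 24 → ∃ O ∈ cs, i ∈ O) (S : List Nat)
    (Sf : Finset Nat) (hSf : Sf = S.toFinset) (hS0 : S ≠ [])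
    (hdiv : ∀ k, k ∣ orderOf g → 8 ≤ k → ∀ j ∈ S, j < k) (b v : Nat)
    (hv : qaE cs S b = v) (hv7 : v ≤ 7) :
    (QA Sf g ∧ v = b) ∨ (¬ QA Sf g ∧ v = b + 1) := by
  obtain ⟨O, hf, hcase⟩ := qaE_spec cs S b v hv hv7
  have hOm : O ∈ cs.filter (fun O => Nat.ble 8 (lenV O 0)) := by
    rw [hf]; exact List.mem_singleton_self _
  have hOcs : O ∈ cs := (List.mem_filter.mp hOm).1
  have h8 : 8 ≤ lenV O 0 := by
    have := (List.mem_filter.mp hOm).2
    rwa [Nat.ble_eq] at this
  have hS : ∀ j ∈ S, j < O.length := by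
    obtain ⟨q, k, hk, he, hret, hmin⟩ := h1 O hOcs
    have hlen : lenV O 0 = k := by rw [he, lenV_map_range]
    have hlen' : O.length = k := by rw [he]; simp
    rw [hlen'] 
    exact hdiv k (period_dvd hk hret hmin (by rw [pow_orderOf_eq_one]; rfl)) (by omega)
  have hiff := qa_iff hg cs h1 h2 O hf S hS hS0
  rw [hSf]
  rcases hcase with ⟨hc, rfl⟩ | ⟨hc, rfl⟩
  · exact Or.inl ⟨hiff.mpr hc, rfl⟩
  · refine Or.inr ⟨fun hq => ?_, rfl⟩
    rw [hiff.mp hq] at hc
    exact Bool.noConfusion hc

theorem quick_of_dvd : ∀ l, l < 24 → (l ∣ 11 ∨ l ∣ 15 ∨ l ∣ 21 ∨ l ∣ 23) → quick l = true := by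
  decide

theorem dec_eq (v : Nat) (h : v < 7) : dec v = some ⟨v, h⟩ := by
  unfold dec; rw [dif_pos h]

theorem dec_seven : dec 7 = none := rfl

theorem hdiv15 : ∀ k, k ∣ 15 → 8 ≤ k → ∀ j ∈ S15, j < k := by
  intro k hk h8
  have hle := Nat.le_of_dvd (by norm_num) hk
  have : k = 15 := by interval_cases k <;> omega
  subst this; decide

theorem hdiv21 : ∀ k, k ∣ 21 → 8 ≤ k → ∀ j ∈ S21, j < k := by
  intro k hk h8
  have hle := Nat.le_of_dvd (by norm_num) hk
  have : k = 21 := by interval_cases k <;> omega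
  subst this; decide

theorem hdiv23 : ∀ k, k ∣ 23 → 8 ≤ k → ∀ j ∈ S23, j < k := by
  intro k hk h8
  have hle := Nat.le_of_dvd (by norm_num) hk
  have : k = 23 := by interval_cases k <;> omega
  subst this; decide

/-- Soundness of the evaluator, for permutations in `M24`. -/
theorem evalP (u s : Equiv.Perm GolayPt) (hus : u * s ∈ M24) (v : Nat)
    (hv : labE (pkP u) (pkP s) = v) (hv7 : v ≤ 7) : labP (u * s) = dec v := by
  have hst : ∀ p : GolayPt, stp (pkP u) (pkP s) (idx p) = idx ((u * s) p) :=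
    fun p => stp_pkP u s p
  generalize u * s = g at hus hst ⊢
  generalize pkP u = U at hv hst
  generalize pkP s = S at hv hst
  rw [labE_eq] at hv
  by_cases hl0 : olen U S 0 24 0 0 = 0
  · rw [if_pos hl0] at hv; omega
  rw [if_neg hl0] at hv
  have h0 : idx (pt 0) = 0 := idx_pt (by norm_num)
  obtain ⟨l, hl, hle, hret, hmin⟩ := olen_spec hst (pt 0) 24 (pt 0) 0 (by rw [h0]; exact hl0)
  rw [h0, Nat.zero_add] at hle
  have hdvd : l ∣ orderOf g := period_dvd hl hret hmin (by rw [pow_orderOf_eq_one]; rfl)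
  rw [hle] at hv
  have hnone : orderOf g ≠ 11 → orderOf g ≠ 15 → orderOf g ≠ 21 → orderOf g ≠ 23 →
      labP g = none := by
    intro a b c d
    unfold labP
    rw [if_neg a, if_neg b, if_neg c, if_neg d]
  by_cases hq : quick l = true
  · rw [if_pos hq] at hv
    unfold labFull at hv
    rw [labG_eq] at hv
    by_cases hn0 : lcmC (cycs U S 24 0) 1 = 0
    · rw [hn0] at hv; simp at hv; omega
    obtain ⟨_, hlen⟩ := lcmC_ne_zero _ 1 hn0
    obtain ⟨hc1, hc2⟩ := cycs_spec hst 24 0 hlen
    have hc2' : ∀ i, i < 24 → ∃ O ∈ cycs U S 24 0, i ∈ O :=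
      fun i hi => (hc2 i hi).resolve_left (by simp)
    have hord := order_eq _ hc1 hc2'
    rw [← hord] at hv hn0
    by_cases h11 : orderOf g = 11
    · rw [if_pos h11] at hv
      subst hv
      unfold labP
      rw [if_pos h11]; rfl
    rw [if_neg h11] at hv
    by_cases h15 : orderOf g = 15
    · rw [if_pos h15] at hv
      have := qa_case hus _ hc1 hc2' S15 S15f (by decide) (by decide)
        (by rw [h15]; exact hdiv15) 1 v hv hv7
      unfold labP
      rw [if_neg h11, if_pos h15]
      rcases this with ⟨hqa, rfl⟩ | ⟨hqa, rfl⟩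
      · rw [if_pos hqa]; rfl
      · rw [if_neg hqa]; rfl
    rw [if_neg h15] at hv
    by_cases h21 : orderOf g = 21
    · rw [if_pos h21] at hv
      have := qa_case hus _ hc1 hc2' S21 S21f (by decide) (by decide)
        (by rw [h21]; exact hdiv21) 3 v hv hv7
      unfold labP
      rw [if_neg h11, if_neg h15, if_pos h21]
      rcases this with ⟨hqa, rfl⟩ | ⟨hqa, rfl⟩
      · rw [if_pos hqa]; rfl
      · rw [if_neg hqa]; rfl
    rw [if_neg h21] at hv
    by_cases h23 : orderOf g = 23
    · rw [if_pos h23] at hv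
      have := qa_case hus _ hc1 hc2' S23 S23f (by decide) (by decide)
        (by rw [h23]; exact hdiv23) 5 v hv hv7
      unfold labP
      rw [if_neg h11, if_neg h15, if_neg h21, if_pos h23]
      rcases this with ⟨hqa, rfl⟩ | ⟨hqa, rfl⟩
      · rw [if_pos hqa]; rfl
      · rw [if_neg hqa]; rfl
    rw [if_neg h23, if_neg hn0] at hv
    subst hv
    rw [hnone h11 h15 h21 h23]; rfl
  · rw [if_neg hq] at hv
    subst hv
    have hno : ∀ n, (n = 11 ∨ n = 15 ∨ n = 21 ∨ n = 23) → orderOf g ≠ n := by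
      intro n hn ho
      rw [ho] at hdvd
      apply hq
      rcases hn with rfl | rfl | rfl | rfl
      · exact quick_of_dvd l (by have := Nat.le_of_dvd (by norm_num) hdvd; omega) (Or.inl hdvd)
      · exact quick_of_dvd l (by have := Nat.le_of_dvd (by norm_num) hdvd; omega)
          (Or.inr (Or.inl hdvd))
      · exact quick_of_dvd l (by have := Nat.le_of_dvd (by norm_num) hdvd; omega)
          (Or.inr (Or.inr (Or.inl hdvd)))
      · exact quick_of_dvd l (by have := Nat.le_of_dvd (by norm_num) hdvd; omega)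
          (Or.inr (Or.inr (Or.inr hdvd)))
    rw [hnone (hno 11 (by simp)) (hno 15 (by simp)) (hno 21 (by simp)) (hno 23 (by simp))]
    rfl

end Cfsg.Agent.Lib.Helper72.M24EVALa
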