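-- S5006 / EVAL: soundness of the kernel evaluator `labE` (the piece `EvalSound`).
import Mathlib
import Cfsg.Agent.Lib.Helper3.M24BlkStmt
import Cfsg.Agent.Lib.Helper72.M24EVALa

set_option autoImplicit false

namespace Cfsg.Agent.Lib.Helper72.M24EVAL

open Cfsg Cfsg.Agent.Lib.Helper3.M24Blk Cfsg.Agent.Lib.Helper3.M24BlkStmt

theorem main : EvalSound := by
  intro u s v hv hv7
  exact Cfsg.Agent.Lib.Helper72.M24EVALa.evalP (u : Equiv.Perm GolayPt)
    (s : Equiv.Perm GolayPt) (u * s).2 v hv hv7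

end Cfsg.Agent.Lib.Helper72.M24EVAL
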