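import Mathlib
import Cfsg.Agent.Lib.Helper45.MAutStmt

/-!
Piece [SE] of S0818: for the minus form, every field automorphism belongs to a semisimilarity.
-/

set_option autoImplicit false

namespace Cfsg.Agent.Lib.Helper72.MAutSE

open Matrix
open Cfsg.Agent.Lib.Helper44.MFld0 Cfsg.Agent.Lib.Helper44.MFldStmt

universe u

theorem minus_sigma {F : Type u} [Field F] (σ : F ≃+* F) (m : ℕ) (a b : F)
    (v : MI m → F) :
    Cfsg.quadFormMinus m F (σ a) (σ b) (fun i => σ (v i)) =
      σ (Cfsg.quadFormMinus m F a b v) := by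
  unfold Cfsg.quadFormMinus
  simp [map_add, map_mul, map_sum, map_pow]

theorem main : Cfsg.Agent.Lib.Helper45.MAutStmt.SemiExists.{u} := by
  intro hIso F _ _ m a b hab σ
  have hab' : Aniso (σ a) (σ b) := by
    intro z₁ z₂ hz
    have h1 := congrArg σ.symm hz
    simp only [map_add, map_mul, map_pow, map_zero, RingEquiv.symm_apply_apply] at h1
    obtain ⟨h2, h3⟩ := hab _ _ h1
    exact ⟨(map_eq_zero_iff σ.symm σ.symm.injective).1 h2,
      (map_eq_zero_iff σ.symm σ.symm.injective).1 h3⟩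
  obtain ⟨j, hj⟩ := hIso F m (σ a) (σ b) a b hab' hab
  refine ⟨j, 1, fun v => ?_⟩
  rw [hj, minus_sigma, Units.val_one, one_mul]

end Cfsg.Agent.Lib.Helper72.MAutSE
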