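import Mathlib
import Cfsg.Agent.Lib.Helper45.MAutStmt
import Cfsg.Agent.Lib.Helper45.SemiAut

/-!
Piece [SU] of S0818: for the minus form, the field automorphism of a semisimilarity is
determined modulo `PGO`.
-/

set_option autoImplicit false

namespace Cfsg.Agent.Lib.Helper72.MAutSU

open Matrix
open Cfsg.Agent.Lib.Helper45.OmegaAut
open Cfsg.Agent.Lib.Helper44.MFld0 Cfsg.Agent.Lib.Helper44.MFldStmt
open Cfsg.Agent.Lib.Helper94.OrthSiegel
open Cfsg.Agent.Lib.Helper43.MiBase (Hy hQ E T T_coe omega_ext polar_E Q_E E_self E_ne)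
open Cfsg.Agent.Lib.Helper43.MiSyl (T_pow eq_lift)
open Cfsg.Agent.Lib.Helper43.SemiSim (SemiPair Lσ Lσ_smul sg_semi)
open Cfsg.Agent.Lib.Helper45.SemiAut (sg_line)

universe u

theorem main : Cfsg.Agent.Lib.Helper45.MAutStmt.SemiUniq.{u} := by
  intro F _ _ m hm3 a b hab g g' σ σ' h h' hmem
  have hy : Hy m F a b := ⟨hm3, hab⟩
  obtain ⟨s, hs⟩ := hmem
  have hs' : semiP g σ h = Phi (Cfsg.quadFormMinus m F a b) s * semiP g' σ' h' := by
    rw [hs, inv_mul_cancel_right]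
  obtain ⟨p, hp⟩ := CharP.exists F
  haveI : CharP F p := hp
  haveI : Fact p.Prime := ⟨CharP.char_is_prime F p⟩
  have hh := h
  have hh' := h'
  obtain ⟨c, hc⟩ := hh
  obtain ⟨c', hc'⟩ := hh'
  obtain ⟨μ, hμ⟩ := s.2
  have hQn := hQ hy
  have hbl := hQn.polar_bilinear
  have hP : SemiPair (Cfsg.quadFormMinus m F a b) g σ (c : F) := ⟨c.ne_zero, hc⟩
  have hP₂ : SemiPair (Cfsg.quadFormMinus m F a b) ((s : GL (MI m) F) * g') σ'
      ((μ : F) * (c' : F)) := by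
    refine ⟨mul_ne_zero μ.ne_zero c'.ne_zero, fun v => ?_⟩
    rw [Units.val_mul, ← Matrix.mulVec_mulVec, hμ, hc', mul_assoc]
  -- the matrix identity on Siegel elements
  have key : ∀ x w : MI m → F,
      g * Matrix.GeneralLinearGroup.map (σ : F →+* F) (sg hQn x w) * g⁻¹ =
        ((s : GL (MI m) F) * g') * Matrix.GeneralLinearGroup.map (σ' : F →+* F) (sg hQn x w) *
          ((s : GL (MI m) F) * g')⁻¹ := by
    intro x w
    have e := congrArg (fun β => β (QuotientGroup.mk (T hy x w))) hs'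
    simp only [MulAut.mul_apply] at e
    rw [semiP_mk, semiP_mk, Phi_mk] at e
    have hx : (semiOm g σ h (T hy x w)) ^ p = 1 := by
      rw [← map_pow, T_pow hy p, map_one]
    have hy' : (cjΩ (Cfsg.quadFormMinus m F a b) s (semiOm g' σ' h' (T hy x w))) ^ p = 1 := by
      rw [← map_pow, ← map_pow, T_pow hy p, map_one, map_one]
    have e2 := eq_lift hy p hx hy' e
    have e3 := congrArg (fun z : ↥(Cfsg.Omega F (Cfsg.quadFormMinus m F a b)) =>
      ((z : ↥(Cfsg.isometryGroup F (Cfsg.quadFormMinus m F a b))) : GL (MI m) F)) e2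
    beta_reduce at e3
    rw [semiOm_coe, cjΩ_coe, semiOm_coe, T_coe] at e3
    rw [e3]
    group
  -- probe vectors
  obtain ⟨i0, i1, hi⟩ : ∃ i0 i1 : Fin m, i1 ≠ i0 := ⟨⟨0, by omega⟩, ⟨1, by omega⟩, by
    intro e
    simp [Fin.ext_iff] at e⟩
  obtain ⟨u, hu⟩ : ∃ u : MI m → F, u = E (Sum.inl i0) := ⟨_, rfl⟩
  obtain ⟨v, hv⟩ : ∃ v : MI m → F, v = E (Sum.inl i1) := ⟨_, rfl⟩
  obtain ⟨u', hu'⟩ : ∃ u' : MI m → F, u' = E (Sum.inr i0) := ⟨_, rfl⟩
  obtain ⟨v', hv'⟩ : ∃ v' : MI m → F, v' = E (Sum.inr i1) := ⟨_, rfl⟩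
  have hQu : Cfsg.quadFormMinus m F a b u = 0 := by rw [hu]; exact Q_E _
  have hQv : Cfsg.quadFormMinus m F a b v = 0 := by rw [hv]; exact Q_E _
  have huv : QuadraticMap.polar (Cfsg.quadFormMinus m F a b) u v = 0 := by
    rw [hu, hv, polar_E]
    exact E_ne (by simp)
  have huu' : QuadraticMap.polar (Cfsg.quadFormMinus m F a b) u u' = 1 := by
    rw [hu, hu', polar_E]
    exact E_self _
  have hvu' : QuadraticMap.polar (Cfsg.quadFormMinus m F a b) v u' = 0 := by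
    rw [hv, hu', polar_E]
    exact E_ne (by simpa using hi)
  have hvv' : QuadraticMap.polar (Cfsg.quadFormMinus m F a b) v v' = 1 := by
    rw [hv, hv', polar_E]
    exact E_self _
  -- images
  obtain ⟨U, hU⟩ : ∃ U : MI m → F, U = Lσ g σ u := ⟨_, rfl⟩
  obtain ⟨V, hV⟩ : ∃ V : MI m → F, V = Lσ g σ v := ⟨_, rfl⟩
  obtain ⟨X, hX⟩ : ∃ X : MI m → F, X = Lσ g σ u' := ⟨_, rfl⟩
  obtain ⟨U₂, hU₂⟩ : ∃ U₂ : MI m → F, U₂ = Lσ ((s : GL (MI m) F) * g') σ' u := ⟨_, rfl⟩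
  obtain ⟨V₂, hV₂⟩ : ∃ V₂ : MI m → F, V₂ = Lσ ((s : GL (MI m) F) * g') σ' v := ⟨_, rfl⟩
  have hQU : Cfsg.quadFormMinus m F a b U = 0 := by
    rw [hU, hP.Q_L, hQu, map_zero, mul_zero]
  have hQV : Cfsg.quadFormMinus m F a b V = 0 := by
    rw [hV, hP.Q_L, hQv, map_zero, mul_zero]
  have hUV : QuadraticMap.polar (Cfsg.quadFormMinus m F a b) U V = 0 := by
    rw [hU, hV, hP.polar_L, huv, map_zero, mul_zero]
  have hUX : QuadraticMap.polar (Cfsg.quadFormMinus m F a b) U X = (c : F) := by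
    rw [hU, hX, hP.polar_L, huu', map_one, mul_one]
  have hVX : QuadraticMap.polar (Cfsg.quadFormMinus m F a b) V X = 0 := by
    rw [hV, hX, hP.polar_L, hvu', map_zero, mul_zero]
  have hQU₂ : Cfsg.quadFormMinus m F a b U₂ = 0 := by
    rw [hU₂, hP₂.Q_L, hQu, map_zero, mul_zero]
  have hQV₂ : Cfsg.quadFormMinus m F a b V₂ = 0 := by
    rw [hV₂, hP₂.Q_L, hQv, map_zero, mul_zero]
  have hUV₂ : QuadraticMap.polar (Cfsg.quadFormMinus m F a b) U₂ V₂ = 0 := by
    rw [hU₂, hV₂, hP₂.polar_L, huv, map_zero, mul_zero]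
  have hV0 : V ≠ 0 := by
    intro h0
    have h1 : QuadraticMap.polar (Cfsg.quadFormMinus m F a b) V (Lσ g σ v') = (c : F) := by
      rw [hV, hP.polar_L, hvv', map_one, mul_one]
    have h2 := hbl.smul_left 0 (0 : MI m → F) (Lσ g σ v')
    rw [zero_smul, zero_mul] at h2
    rw [h0, h2] at h1
    exact c.ne_zero h1.symm
  obtain ⟨W, hW⟩ : ∃ W : MI m → F, W = ((μ : F) * (c' : F))⁻¹ •
      (QuadraticMap.polar (Cfsg.quadFormMinus m F a b) U₂ X • V₂ -
        QuadraticMap.polar (Cfsg.quadFormMinus m F a b) V₂ X • U₂) := ⟨_, rfl⟩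
  have main : ∀ t : F, σ t • V = σ' t • W := by
    intro t
    have k := key u (t • v)
    have huv' : QuadraticMap.polar (Cfsg.quadFormMinus m F a b) u (t • v) = 0 := by
      rw [hbl.smul_right, huv, mul_zero]
    rw [sg_semi hQn hP u (t • v) hQu huv', sg_semi hQn hP₂ u (t • v) hQu huv', Lσ_smul,
      Lσ_smul, smul_smul, smul_smul, ← hU, ← hV, ← hU₂, ← hV₂] at k
    have k2 := congrArg (fun A : GL (MI m) F => (A : Matrix (MI m) (MI m) F) *ᵥ X) k
    beta_reduce at k2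
    rw [sg_line hQn hQU hQV hUV, sg_line hQn hQU₂ hQV₂ hUV₂, hUX, hVX, zero_smul, sub_zero,
      smul_smul] at k2
    have k3 := add_left_cancel k2
    have e1 : ((c : F)⁻¹ * σ t * (c : F)) = σ t := by
      rw [mul_comm, ← mul_assoc, mul_inv_cancel₀ c.ne_zero, one_mul]
    rw [e1] at k3
    rw [k3, hW, smul_smul]
    congr 1
    ring
  have m1 := main 1
  rw [map_one, map_one, one_smul, one_smul] at m1
  apply RingEquiv.ext
  intro t
  have m2 := main t
  rw [← m1] at m2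
  have m3 : (σ t - σ' t) • V = 0 := by rw [sub_smul, m2, sub_self]
  rcases smul_eq_zero.mp m3 with h4 | h4
  · exact sub_eq_zero.mp h4
  · exact absurd h4 hV0

end Cfsg.Agent.Lib.Helper72.MAutSU
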