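import Mathlib
import Cfsg.Agent.Lib.Helper44.MFldStmt
import Cfsg.Agent.Lib.Helper91.OFldMa

/-!
Piece [EF] of S2737 (Hilbert 90: a twisted cocycle in the similarity group of a general
`σ`-invariant quadratic form gives a `σ`-invariant form).  Port of `Helper91.OFldMa.main`.
-/

set_option autoImplicit false

namespace Cfsg.Agent.Lib.Helper72.MFldEF

open Matrix
open Cfsg.Agent.Lib.Helper43.H90Fin Cfsg.Agent.Lib.Helper43.H90GL
open Cfsg.Agent.Lib.Helper44.MFld0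
open Cfsg.Agent.Lib.Helper91.OFldMa

universe u

theorem main : Cfsg.Agent.Lib.Helper44.MFldStmt.ExistsFormQ.{u} := by
  intro F _ _ ι _ _ Q hex σ hinv a hsc
  classical
  have hpos : 0 < orderOf σ := orderOf_pos_ringAut σ
  have Q_smul : ∀ (μ : F) (w : ι → F), Q (μ • w) = μ * μ * Q w := by
    intro μ w
    rw [QuadraticMap.map_smul, smul_eq_mul]
  have Q_map : ∀ w : ι → F, Q (fun i => σ (w i)) = σ (Q w) := fun w => hinv w
  have Q_zero : Q (0 : ι → F) = 0 := map_zero Q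
  obtain ⟨A, hA⟩ : ∃ A : Matrix ι ι F,
      A = ((a : GL ι F) : Matrix ι ι F) := ⟨_, rfl⟩
  obtain ⟨T, hT⟩ : ∃ T : ℕ → Matrix ι ι F, ∀ k, T k =
      (((twq σ hinv a k : GOq (⇑Q)) : GL ι F) : Matrix ι ι F) := ⟨_, fun _ => rfl⟩
  have hT0 : T 0 = 1 := by rw [hT]; rfl
  have hTs : ∀ k, T (k + 1) = A * (T k).map σ := by
    intro k; rw [hT, hT, hA]; rfl
  have hTs' := seq_succ' σ A T hT0 hTs
  obtain ⟨v0, hv0⟩ := hex
  -- the scalar
  obtain ⟨c, hc⟩ := hsc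
  rw [← hT] at hc
  have hTn : T (orderOf σ) = c • (1 : Matrix ι ι F) :=
    eq_smul_one_of_mulVec _ c hc
  have hc0 : c ≠ 0 := by
    obtain ⟨cn, hcn⟩ := (twq σ hinv a (orderOf σ)).2
    intro h0
    have h1 := hcn v0
    rw [← hT, hc, h0, zero_smul] at h1
    rw [Q_zero] at h1
    exact (mul_ne_zero cn.ne_zero hv0) h1.symm
  obtain ⟨ca, hca⟩ := a.2
  rw [← hA] at hca
  have hA0 : ∀ x : F, x • A = 0 → x = 0 := by
    intro x hx
    by_contra hx0
    have h1 := hca v0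
    have h2 : A *ᵥ v0 = 0 := by
      have : (x • A) *ᵥ v0 = 0 := by rw [hx, Matrix.zero_mulVec]
      rw [Matrix.smul_mulVec] at this
      exact (smul_eq_zero.mp this).resolve_left hx0
    rw [h2] at h1
    rw [Q_zero] at h1
    exact (mul_ne_zero ca.ne_zero hv0) h1.symm
  have hσc : σ c = c := by
    have h1 := hTs (orderOf σ)
    rw [hTs', hTn, Cfsg.Agent.Lib.Helper91.OFldMa.map_smul', Matrix.map_one _ (map_zero σ) (map_one σ), Matrix.mul_smul,
      Matrix.smul_mul, mul_one, one_mul] at h1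
    have h2 : A.map (σ ^ orderOf σ) = A := by
      ext i j
      rw [Matrix.map_apply, pow_orderOf_apply]
    rw [h2] at h1
    have h3 : (σ c - c) • A = 0 := by rw [sub_smul, ← h1, sub_self]
    exact sub_eq_zero.mp (hA0 _ h3)
  obtain ⟨μ, hμ0, hμ⟩ := norm_surj σ c⁻¹ (inv_ne_zero hc0) (by rw [map_inv₀, hσc])
  obtain ⟨S, hS⟩ : ∃ S : ℕ → Matrix ι ι F,
      ∀ k, S k = nm σ μ k • T k := ⟨_, fun _ => rfl⟩
  have hS0 : S 0 = 1 := by rw [hS, nm_zero, one_smul, hT0]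
  have hSs : ∀ k, S (k + 1) = (μ • A) * (S k).map σ := by
    intro k
    rw [hS, hS, nm_succ', hTs, Cfsg.Agent.Lib.Helper91.OFldMa.map_smul', Matrix.smul_mul, Matrix.mul_smul, smul_smul]
  have hSn : S (orderOf σ) = 1 := by
    rw [hS, hμ, hTn, smul_smul, inv_mul_cancel₀ hc0, one_smul]
  obtain ⟨B, hBu, hB⟩ := h90_matrix σ hpos (μ • A) S hS0 hSs hSn
  -- multipliers
  obtain ⟨c', hc'def⟩ : ∃ c' : F, c' = μ * μ * (ca : F) := ⟨_, rfl⟩
  have hc' : ∀ w : ι → F, Q ((μ • A) *ᵥ w) = c' * Q w := by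
    intro w
    rw [Matrix.smul_mulVec, Q_smul, hca, hc'def]
    ring
  have hSm : ∀ k, ∀ v : ι → F, Q (S k *ᵥ v) = nm σ c' k * Q v := by
    intro k
    induction k with
    | zero =>
      intro v
      rw [hS0, Matrix.one_mulVec, nm_zero, one_mul]
    | succ k ih =>
      intro v
      obtain ⟨w, hw⟩ : ∃ w : ι → F, v = fun i => σ (w i) :=
        ⟨fun i => σ.symm (v i), by funext i; simp⟩
      rw [hSs, ← Matrix.mulVec_mulVec, hc', hw, mapσ_mulVec, Q_map, ih, map_mul, Q_map,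
        nm_succ', mul_assoc]
  have hc'n : nm σ c' (orderOf σ) = 1 := by
    have h1 := hSm (orderOf σ) v0
    rw [hSn, Matrix.one_mulVec] at h1
    have h2 : (nm σ c' (orderOf σ) - 1) * Q v0 = 0 := by
      rw [sub_mul, one_mul, ← h1, sub_self]
    exact sub_eq_zero.mp ((mul_eq_zero.mp h2).resolve_right hv0)
  obtain ⟨μ0, hμ00, hμ0eq⟩ := h90 σ hpos c' hc'n
  refine ⟨Units.mk0 μ hμ0, Units.mk0 μ0⁻¹ (inv_ne_zero hμ00), hBu.unit, ?_, ?_⟩
  · rw [Units.val_mk0, IsUnit.unit_spec, ← hA]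
    exact hB
  · intro v
    rw [Units.val_mk0, IsUnit.unit_spec]
    have e1 : B *ᵥ (fun i => σ (v i)) = (μ • A) *ᵥ (fun i => σ ((B *ᵥ v) i)) := by
      nth_rewrite 1 [← hB]
      rw [← Matrix.mulVec_mulVec, mapσ_mulVec]
    rw [e1, hc', Q_map, map_mul, map_inv₀]
    have hσμ0 : σ μ0 ≠ 0 := (map_ne_zero_iff σ σ.injective).2 hμ00
    have e2 : μ0⁻¹ * c' = (σ μ0)⁻¹ := by
      calc μ0⁻¹ * c' = μ0⁻¹ * (c' * σ μ0) * (σ μ0)⁻¹ := by
            rw [mul_assoc, mul_assoc, mul_inv_cancel₀ hσμ0, mul_one]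
        _ = (σ μ0)⁻¹ := by rw [hμ0eq, inv_mul_cancel₀ hμ00, one_mul]
    rw [← mul_assoc, e2]

end Cfsg.Agent.Lib.Helper72.MFldEF
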