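import Mathlib
import Cfsg.Agent.Lib.Helper87.PCStmt
import Cfsg.Agent.Lib.Helper87.ChainStab
import Cfsg.Agent.Lib.Helper87.FSLocal

/-! S5243 piece CS0: if `T` is strongly closed in `X` and `C_T(Q ∩ T) ≰ Q ∩ T`, the stabilizer in
`Aut_X(Q)` of the chain `1 ≤ Q ∩ T ≤ Q` is a normal `p`-subgroup containing `c_g` for some
`g ∈ N_S(Q)` outside `Q`. -/

set_option autoImplicit false

namespace Cfsg.Agent.Lib.Helper72.PCCS0

open Cfsg Cfsg.FusionSystem Cfsg.Agent.H85 Cfsg.Agent.Lib.Helper87.PCStmt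
open Cfsg.Agent.Lib.Helper87.ChainStab

universe u

/-- The chain `Q ≥ Q ∩ T ≥ 1 ≥ 1 ≥ ⋯` of subgroups of `Q`. -/
def chainQT {Ω : Type*} [Group Ω] (Q T : Subgroup Ω) : ℕ → Subgroup Q
  | 0 => ⊤
  | 1 => (Q ⊓ T).subgroupOf Q
  | (_ + 2) => ⊥

/-- A strongly closed subgroup is normalized by `S`. -/
theorem conj_mem_of_stronglyClosed {Ω : Type*} [Group Ω] {S T : Subgroup Ω} (X : FusionSystem S)
    (hT : X.StronglyClosed T) {g : Ω} (hg : g ∈ S) {t : Ω} (ht : t ∈ T) : g * t * g⁻¹ ∈ T :=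
  hT.2 T le_rfl (conjHom T g) (X.conj_mem hT.1 hg) ⟨t, ht⟩

theorem chain_inv {Ω : Type*} [Group Ω] {S T : Subgroup Ω} (X : FusionSystem S)
    (hT : X.StronglyClosed T) (Q : Subgroup Ω) (hQ : Q ≤ S) :
    ∀ α ∈ X.autGroup Q, ∀ i, ∀ x ∈ chainQT Q T i, α x ∈ chainQT Q T i := by
  intro α hα i x hx
  match i, hx with
  | 0, _ => exact Subgroup.mem_top _
  | 1, hx =>
    have hx' : (x : Ω) ∈ Q ⊓ T := Subgroup.mem_subgroupOf.mp hx
    have hα' := (mem_autGroup_iff X hQ α).mp hα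
    have hr := restrict_mem X hα' (inf_le_left : Q ⊓ T ≤ Q)
    have h1 := hT.2 (Q ⊓ T) inf_le_right _ hr ⟨x, hx'⟩
    exact Subgroup.mem_subgroupOf.mpr ⟨(α x).2, h1⟩
  | (n + 2), hx =>
    have hx' : x = 1 := Subgroup.mem_bot.mp hx
    rw [hx', map_one]
    exact Subgroup.one_mem _

theorem main : CS0.{u} := by
  intro Ω _ S T _ p _ hS X hT Q hQ hne
  -- `A = C_T(Q ∩ T)`
  have hAT : centralizerIn T (Q ⊓ T) ≤ T := inf_le_left
  have hAS : centralizerIn T (Q ⊓ T) ≤ S := hAT.trans hT.1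
  have hconjT : ∀ {g : Ω}, g ∈ S → ∀ {t : Ω}, t ∈ T → g * t * g⁻¹ ∈ T :=
    fun hg _ ht => conj_mem_of_stronglyClosed X hT hg ht
  have hQA : Q ≤ Subgroup.normalizer ((centralizerIn T (Q ⊓ T) : Subgroup Ω) : Set Ω) := by
    intro q hq
    have key : ∀ {q : Ω}, q ∈ Q → ∀ {a : Ω}, a ∈ centralizerIn T (Q ⊓ T) →
        q * a * q⁻¹ ∈ centralizerIn T (Q ⊓ T) := by
      intro q hq a ha
      refine ⟨hconjT (hQ hq) ha.1, ?_⟩
      show q * a * q⁻¹ ∈ Subgroup.centralizer ((Q ⊓ T : Subgroup Ω) : Set Ω)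
      rw [Subgroup.mem_centralizer_iff]
      intro y hy
      have hy' : q⁻¹ * y * q ∈ Q ⊓ T := by
        refine ⟨Q.mul_mem (Q.mul_mem (Q.inv_mem hq) hy.1) hq, ?_⟩
        have := hconjT (S.inv_mem (hQ hq)) hy.2
        simpa using this
      have h2 := (Subgroup.mem_centralizer_iff.mp ha.2) _ hy'
      have e1 : y * (q * a * q⁻¹) = q * ((q⁻¹ * y * q) * a) * q⁻¹ := by group
      have e2 : q * a * q⁻¹ * y = q * (a * (q⁻¹ * y * q)) * q⁻¹ := by group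
      rw [e1, e2, h2]
    rw [Subgroup.mem_normalizer_iff]
    intro a
    constructor
    · intro ha
      exact key hq ha
    · intro ha
      have := key (Q.inv_mem hq) ha
      have e : q⁻¹ * (q * a * q⁻¹) * q⁻¹⁻¹ = a := by group
      rw [e] at this
      exact this
  have hneQ : ¬ centralizerIn T (Q ⊓ T) ≤ Q := fun h => hne (le_inf h hAT)
  obtain ⟨a, haA, haN, haQ⟩ :=
    Cfsg.Agent.Lib.Helper87.FSLocal.exists_mem_normalizer_of_not_le hS hQ hAS hQA hneQ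
  have hfinQ : Finite Q := Finite.of_injective (Subgroup.inclusion hQ)
    (Subgroup.inclusion_injective hQ)
  have hQp : IsPGroup p Q := hS.to_le hQ
  have hinv := chain_inv X hT Q hQ
  refine ⟨chainStab (X.autGroup Q) (chainQT Q T) hinv,
    chainStab_isPGroup hQp _ _ hinv rfl 2 rfl, chainStab_le _ _ hinv,
    chainStab_normal _ _ hinv, a, hAS haA, haN, haQ, ?_⟩
  rw [mem_chainStab_iff]
  refine ⟨?_, ?_⟩
  · exact autInducedBy_le_autGroup X hQ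
      ((mem_autInducedBy_iff S Q _).mpr ⟨a, hAS haA, fun x => rfl⟩)
  · intro i x hx
    match i, hx with
    | 0, _ =>
      refine Subgroup.mem_subgroupOf.mpr ⟨(x⁻¹ * Q.normalizerMonoidHom ⟨a, haN⟩ x).2, ?_⟩
      show (x : Ω)⁻¹ * (a * (x : Ω) * a⁻¹) ∈ T
      have h1 : (x : Ω)⁻¹ * a * (x : Ω)⁻¹⁻¹ ∈ T := hconjT (S.inv_mem (hQ x.2)) (hAT haA)
      have e : (x : Ω)⁻¹ * (a * (x : Ω) * a⁻¹) = ((x : Ω)⁻¹ * a * (x : Ω)⁻¹⁻¹) * a⁻¹ := by group
      rw [e]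
      exact T.mul_mem h1 (T.inv_mem (hAT haA))
    | 1, hx =>
      have hx' : (x : Ω) ∈ Q ⊓ T := Subgroup.mem_subgroupOf.mp hx
      have h2 := (Subgroup.mem_centralizer_iff.mp haA.2) _ hx'
      refine Subgroup.mem_bot.mpr (Subtype.ext ?_)
      show (x : Ω)⁻¹ * (a * (x : Ω) * a⁻¹) = 1
      rw [← h2]; group
    | (n + 2), hx =>
      have hx' : x = 1 := Subgroup.mem_bot.mp hx
      rw [hx', map_one, inv_one, one_mul]
      exact Subgroup.one_mem _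

end Cfsg.Agent.Lib.Helper72.PCCS0
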