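import Mathlib
import Cfsg.Agent.Lib.Helper30.PSgStmt
import Cfsg.Agent.Lib.Helper69.Conj

/-! S4321 piece NORM: if every element of the Sylow `p`-subgroup `P` whose class size is divisible
by `p` has all its conjugates in `P`, and there is such an element, then `P` is normal. -/

set_option autoImplicit false

namespace Cfsg.Agent.Lib.Helper72.PSgNORM

open Cfsg.Agent.Lib.Helper55.ClassSize Cfsg.Agent.Lib.Helper30.PSgStmt

universe u

theorem main : NormDef.{u} := by
  intro G _ _ p _ P u hu hpu hconj
  have hQP : (P : Subgroup G).normalCore ≤ (P : Subgroup G) := Subgroup.normalCore_le _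
  have hQn : ((P : Subgroup G).normalCore).Normal := Subgroup.normalCore_normal _
  have h1 : ∀ z ∈ (P : Subgroup G), p ∣ cs z → z ∈ (P : Subgroup G).normalCore :=
    fun z hz hpz => hconj z hz hpz
  have h2 : ∀ z ∈ (P : Subgroup G), ¬ p ∣ cs z →
      ∀ q ∈ (P : Subgroup G).normalCore, z * q = q * z := by
    intro z hz hpz q hq
    obtain ⟨g, hg⟩ := Cfsg.Agent.Lib.Helper69.Conj.exists_conj_mem_centralizer_sylow P z hpz
    have hq' : g * q * g⁻¹ ∈ (P : Subgroup G) := hQP (hQn.conj_mem q hq g)
    have h3 := Subgroup.mem_centralizer_iff.mp hg _ hq'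
    have e1 : z * q = g⁻¹ * ((g * z * g⁻¹) * (g * q * g⁻¹)) * g := by group
    have e2 : q * z = g⁻¹ * ((g * q * g⁻¹) * (g * z * g⁻¹)) * g := by group
    rw [e1, e2, h3]
  by_contra hnot
  have hPQ : ¬ (P : Subgroup G) ≤ (P : Subgroup G).normalCore := by
    intro hle
    apply hnot
    have e : (P : Subgroup G) = (P : Subgroup G).normalCore := le_antisymm hle hQP
    rw [e]; exact hQn
  obtain ⟨a, haP, haQ⟩ := SetLike.not_le_iff_exists.mp hPQ
  have hpa : ¬ p ∣ cs a := fun h => haQ (h1 a haP h)
  have ha := h2 a haP hpa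
  have hQab : ∀ q ∈ (P : Subgroup G).normalCore, ∀ q' ∈ (P : Subgroup G).normalCore,
      q * q' = q' * q := by
    intro q hq q' hq'
    have haq : a * q ∈ (P : Subgroup G) := (P : Subgroup G).mul_mem haP (hQP hq)
    have haqQ : a * q ∉ (P : Subgroup G).normalCore := by
      intro h
      apply haQ
      have h5 := ((P : Subgroup G).normalCore).mul_mem h
        (((P : Subgroup G).normalCore).inv_mem hq)
      rw [mul_inv_cancel_right] at h5
      exact h5
    have hpaq : ¬ p ∣ cs (a * q) := fun h => haqQ (h1 _ haq h)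
    have h3 := h2 _ haq hpaq q' hq'
    have h4 := ha q' hq'
    have h6 : a * (q * q') = a * (q' * q) :=
      calc a * (q * q') = a * q * q' := (mul_assoc _ _ _).symm
        _ = q' * (a * q) := h3
        _ = q' * a * q := (mul_assoc _ _ _).symm
        _ = a * q' * q := by rw [h4]
        _ = a * (q' * q) := mul_assoc _ _ _
    exact mul_left_cancel h6
  have huQ : u ∈ (P : Subgroup G).normalCore := h1 u hu hpu
  have hPu : (P : Subgroup G) ≤ Subgroup.centralizer ({u} : Set G) := by
    intro x hx
    rw [mem_cent]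
    by_cases hxQ : x ∈ (P : Subgroup G).normalCore
    · exact hQab x hxQ u huQ
    · have hpx : ¬ p ∣ cs x := fun h => hxQ (h1 x hx h)
      exact h2 x hx hpx u huQ
  have hdvd : cs u ∣ (P : Subgroup G).index := Subgroup.index_dvd_of_le hPu
  exact P.not_dvd_index (dvd_trans hpu hdvd)

end Cfsg.Agent.Lib.Helper72.PSgNORM
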