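import Mathlib
import Cfsg.Agent.Lib.Helper9.S51IStmt

set_option autoImplicit false

/-!
# S1351 piece XFUSZ: `a, g a g⁻¹ ∈ T` ⟹ `g z g⁻¹ ∈ ⟨z⟩`

Pure: the only fact on `L_σ` used is that its order is a `σ(L)`-number, proved here from the
definition of `piCore`.
-/

namespace Cfsg.Agent.Lib.Helper72.S51XFUSZ

open Cfsg Cfsg.Agent.Lib.Helper9.S51IStmt

universe u

/-- the order of `H ⊔ K` (`K` normal) divides `|H| |K|` -/
theorem card_sup_dvd {X : Type u} [Group X] (H K : Subgroup X) [K.Normal] :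
    Nat.card ↥(H ⊔ K) ∣ Nat.card H * Nat.card K := by
  have h1 : Nat.card K * K.relIndex (H ⊔ K) = Nat.card ↥(H ⊔ K) := by
    have := Subgroup.relIndex_mul_relIndex ⊥ K (H ⊔ K) bot_le le_sup_right
    rwa [Subgroup.relIndex_bot_left, Subgroup.relIndex_bot_left] at this
  rw [← h1, Subgroup.relIndex_sup_right, mul_comm]
  exact Nat.mul_dvd_mul (Subgroup.relIndex_dvd_card K H) dvd_rfl

/-- the `π`-core of a finite group is a `π`-group -/
theorem piCore_pi (π : Set ℕ) (X : Type u) [Group X] [Finite X] (p : ℕ) (hp : p.Prime)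
    (hd : p ∣ Nat.card (Cfsg.piCore π X)) : p ∈ π := by
  classical
  let S : Set (Subgroup X) := {N | N.Normal ∧ ∀ p : ℕ, p.Prime → p ∣ Nat.card N → p ∈ π}
  have hfin : S.Finite := Set.toFinite S
  have key : ∀ T : Finset (Subgroup X), (∀ N ∈ T, N ∈ S) → T.sup id ∈ S := by
    intro T hT
    refine Finset.sup_induction (p := fun N => N ∈ S) ?_ ?_ hT
    · refine ⟨inferInstance, ?_⟩
      intro p hp hd
      rw [Subgroup.card_bot] at hd
      exact absurd (Nat.le_of_dvd one_pos hd) (not_le.mpr hp.one_lt)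
    · intro N1 h1 N2 h2
      haveI := h1.1
      haveI := h2.1
      refine ⟨inferInstance, ?_⟩
      intro p hp hd
      rcases (hp.dvd_mul).mp (hd.trans (card_sup_dvd N1 N2)) with h | h
      · exact h1.2 p hp h
      · exact h2.2 p hp h
  have hS : Cfsg.piCore π X = hfin.toFinset.sup id := by
    rw [Finset.sup_id_eq_sSup, Set.Finite.coe_toFinset]
    rfl
  have h3 := key hfin.toFinset (fun N hN => by simpa using hN)
  rw [← hS] at h3
  exact h3.2 p hp hd

theorem not_dvd_sigmaCore' {G : Type u} [Group G] [Finite G] (L : Subgroup G) (p : ℕ)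
    (hp : p.Prime) (hns : p ∉ Cfsg.sigma L) : ¬ p ∣ Nat.card (Cfsg.sigmaCore L) := by
  intro h
  apply hns
  have h2 : Nat.card (Cfsg.sigmaCore L) = Nat.card (Cfsg.piCore (Cfsg.sigma L) L) := by
    unfold Cfsg.sigmaCore
    exact Subgroup.card_map_of_injective L.subtype_injective
  rw [h2] at h
  exact piCore_pi (Cfsg.sigma L) L p hp h

/-- two powers of `a` of the same order generate the same subgroup -/
theorem pow_mem_zpowers_of_orderOf_eq {G : Type u} [Group G] [Finite G] (a : G) (e e' : ℕ)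
    (h : orderOf (a ^ e) = orderOf (a ^ e')) : a ^ e ∈ Subgroup.zpowers (a ^ e') := by
  have hn : 0 < orderOf a := orderOf_pos a
  have h1 : orderOf (a ^ e) = orderOf a / Nat.gcd (orderOf a) e := orderOf_pow a
  have h2 : orderOf (a ^ e') = orderOf a / Nat.gcd (orderOf a) e' := orderOf_pow a
  have hd1 := Nat.gcd_dvd_left (orderOf a) e
  have hd2 := Nat.gcd_dvd_left (orderOf a) e'
  have hg : Nat.gcd (orderOf a) e = Nat.gcd (orderOf a) e' := by
    rw [h1, h2] at h
    have hm : 0 < orderOf a / Nat.gcd (orderOf a) e' :=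
      Nat.div_pos (Nat.le_of_dvd hn hd2) (Nat.gcd_pos_of_pos_left _ hn)
    have e1 := Nat.mul_div_cancel' hd1
    have e2 := Nat.mul_div_cancel' hd2
    rw [h] at e1
    exact Nat.eq_of_mul_eq_mul_right hm (e1.trans e2.symm)
  obtain ⟨t, ht⟩ : Nat.gcd (orderOf a) e' ∣ e := hg ▸ Nat.gcd_dvd_right (orderOf a) e
  have hb := Nat.gcd_eq_gcd_ab (orderOf a) e'
  have h3 : a ^ (Nat.gcd (orderOf a) e') = (a ^ e') ^ (Nat.gcdB (orderOf a) e') := by
    rw [← zpow_natCast a (Nat.gcd (orderOf a) e'), hb, zpow_add, zpow_mul, zpow_mul,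
      zpow_natCast, zpow_natCast, pow_orderOf_eq_one, one_zpow, one_mul]
  rw [ht, pow_mul, h3]
  exact Subgroup.pow_mem _ (Subgroup.zpow_mem _ (Subgroup.mem_zpowers _) _) _

theorem main (hXC : XCent.{u}) (hXO : XOrdQ.{u}) : XFusZ.{u} := by
  intro G _ _ hG L F z q hT a ha g hga
  have hqp : q.Prime := hT.hq.1
  have hqns : q ∉ Cfsg.sigma L := hT.hq.2.1
  have key : ∀ a' ∈ TS (Cz L z) (Bz F z) q,
      ∃ e : ℕ, a' ^ e ∈ Subgroup.zpowers z ∧ orderOf (a' ^ e) = q := by
    rintro a' ⟨c, hc, hc1, b, hb, hqb, rfl⟩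
    have hcomm : Commute c b := hXC hG L F z q hT c hc b hb
    have hqc : ¬ q ∣ orderOf c := by
      intro h
      apply not_dvd_sigmaCore' L q hqp hqns
      exact h.trans (Subgroup.orderOf_dvd_natCard (Cfsg.sigmaCore L) hc.1)
    obtain ⟨m, hm⟩ := hqb
    have hbpos : 0 < orderOf b := orderOf_pos b
    have hmpos : 0 < m := by
      rcases Nat.eq_zero_or_pos m with h | h
      · rw [h, mul_zero] at hm; omega
      · exact h
    have hdiv : orderOf b / q = m := by
      rw [hm]; exact Nat.mul_div_cancel_left m hqp.pos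
    have hcop : Nat.Coprime q (orderOf c) := (Nat.Prime.coprime_iff_not_dvd hqp).mpr hqc
    have hpow : (c * b) ^ (orderOf c * m) = b ^ (orderOf c * m) := by
      rw [hcomm.mul_pow, pow_mul, pow_orderOf_eq_one, one_pow, one_mul]
    have hord : orderOf (b ^ (orderOf c * m)) = q := by
      rw [orderOf_pow, hm, Nat.gcd_mul_right, hcop.gcd_eq_one, one_mul]
      exact Nat.mul_div_cancel q hmpos
    refine ⟨orderOf c * m, ?_, ?_⟩
    · rw [hpow]
      refine hXO hG L F z q hT _ (hT.hF.1 (Subgroup.pow_mem _ hb.1 _)) hord ?_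
      have hbz : Commute b z := by
        have := Subgroup.mem_centralizer_iff.mp hb.2 z (Set.mem_singleton z)
        exact this.symm
      exact (hbz.pow_left _).eq
    · rw [hpow]; exact hord
  obtain ⟨e, he1, he2⟩ := key a ha
  obtain ⟨e', he1', he2'⟩ := key (g * a * g⁻¹) hga
  have hzq : orderOf z = q := hT.hzo
  -- `⟨a ^ e⟩ = ⟨z⟩`
  have hA : Subgroup.zpowers (a ^ e) = Subgroup.zpowers z := by
    apply Subgroup.eq_of_le_of_card_ge
    · exact (Subgroup.zpowers_le).mpr he1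
    · rw [Nat.card_zpowers, Nat.card_zpowers, he2, hzq]
  have hB : Subgroup.zpowers ((g * a * g⁻¹) ^ e') = Subgroup.zpowers z := by
    apply Subgroup.eq_of_le_of_card_ge
    · exact (Subgroup.zpowers_le).mpr he1'
    · rw [Nat.card_zpowers, Nat.card_zpowers, he2', hzq]
  have hconj : (g * a * g⁻¹) ^ e' = g * a ^ e' * g⁻¹ := conj_pow
  have hord' : orderOf (a ^ e') = q := by
    have h := (MulAut.conj g).orderOf_eq (a ^ e')
    rw [MulAut.conj_apply, ← hconj, he2'] at h
    exact h.symm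
  have hmem : a ^ e ∈ Subgroup.zpowers (a ^ e') :=
    pow_mem_zpowers_of_orderOf_eq a e e' (he2.trans hord'.symm)
  have hz : z ∈ Subgroup.zpowers (a ^ e') := by
    have h1 : z ∈ Subgroup.zpowers (a ^ e) := hA ▸ Subgroup.mem_zpowers z
    exact (Subgroup.zpowers_le.mpr hmem) h1
  obtain ⟨k, hk⟩ := Subgroup.mem_zpowers_iff.mp hz
  rw [← hB, ← hk]
  have : g * (a ^ e') ^ k * g⁻¹ = ((g * a * g⁻¹) ^ e') ^ k := by
    rw [hconj, conj_zpow]
  rw [this]
  exact Subgroup.zpow_mem _ (Subgroup.mem_zpowers _) _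

end Cfsg.Agent.Lib.Helper72.S51XFUSZ
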