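import Mathlib
import Cfsg.Agent.Lib.Helper83.S51Stmt
import Cfsg.Agent.Lib.Helper72.S51XFUSZ

set_option autoImplicit false

/-!
# S1351 part B, piece HINT: `L ∩ L' ≤ W` when `L = L_σ W`, `L' = L'_σ W`, `σ(L) ∩ σ(L') = ∅`
-/

namespace Cfsg.Agent.Lib.Helper72.S51HINT

open Cfsg Cfsg.Agent.Lib.Helper83.S51Stmt

universe u

theorem main (hGF : GF.{u}) : HInt.{u} := by
  intro G _ _ hG L L' W hL hL' hdisj hWL hWL' hcov hcov' x hx
  obtain ⟨hxL, hxL'⟩ := hx
  obtain ⟨a, ha, w, hw, rfl⟩ := hcov x hxL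
  have haL' : a ∈ L' := by
    have : a = (a * w) * w⁻¹ := by group
    rw [this]; exact L'.mul_mem hxL' (L'.inv_mem (hWL' hw))
  obtain ⟨a', ha', w', hw', haeq⟩ := hcov' a haL'
  have hsL : Cfsg.sigmaCore L ≤ L := Subgroup.map_subtype_le _
  have ha'L : a' ∈ L := by
    have : a' = a * w'⁻¹ := by rw [haeq]; group
    rw [this]; exact L.mul_mem (hsL ha) (L.inv_mem (hWL hw'))
  have hcomm : a * a' = a' * a := hGF hG L L' hL hL' hdisj a ha haL' a' ha' ha'L
  have hcop : (orderOf a).Coprime (orderOf a') := by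
    apply Nat.coprime_of_dvd
    intro p hp h1 h2
    have hp1 : p ∈ Cfsg.sigma L := by
      by_contra hns
      exact Cfsg.Agent.Lib.Helper72.S51XFUSZ.not_dvd_sigmaCore' L p hp hns
        (h1.trans (Subgroup.orderOf_dvd_natCard _ ha))
    have hp2 : p ∈ Cfsg.sigma L' := by
      by_contra hns
      exact Cfsg.Agent.Lib.Helper72.S51XFUSZ.not_dvd_sigmaCore' L' p hp hns
        (h2.trans (Subgroup.orderOf_dvd_natCard _ ha'))
    exact hdisj p hp1 hp2
  have hw'eq : w' = a'⁻¹ * a := by rw [haeq]; group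
  have hpow : w' ^ (orderOf a') = a ^ (orderOf a') := by
    have hc : Commute a'⁻¹ a := Commute.inv_left (show Commute a' a from hcomm.symm)
    rw [hw'eq, hc.mul_pow, inv_pow, pow_orderOf_eq_one, inv_one, one_mul]
  have haW : a ∈ W := by
    have h1 : orderOf (a ^ 1) = orderOf (a ^ (orderOf a')) := by
      rw [pow_one]; exact (Nat.Coprime.orderOf_pow hcop).symm
    have h2 := Cfsg.Agent.Lib.Helper72.S51XFUSZ.pow_mem_zpowers_of_orderOf_eq a 1 (orderOf a') h1
    rw [pow_one, ← hpow] at h2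
    exact (Subgroup.zpowers_le.mpr (W.pow_mem hw' _)) h2
  exact W.mul_mem haW hw

end Cfsg.Agent.Lib.Helper72.S51HINT
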