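import Mathlib
import Cfsg.Agent.Lib.Helper41.TMStmt
import Cfsg.Agent.Lib.Helper76.S8Glue

set_option autoImplicit false

/-! S5987 piece PROJ (second seat, helper72; port of `Helper6.TPPROJ` to the minus form): an
isometry of the minus form with `x ^ r` scalar, `r` odd, is `± y` with `y ^ r = 1`. -/

namespace Cfsg.Agent.Lib.Helper72.TMPROJ

open Cfsg.Agent.Lib.Helper41.TMStmt Cfsg.Agent.Lib.Helper76.S8Glue Matrix
open Cfsg.Agent.Lib.Helper45.OMiStmt (M Aniso FxM NDegM StabM)

universe u

theorem q_smul {F : Type u} [Field F] (d : ℕ) (a b z : F) (v : M d → F) :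
    Cfsg.quadFormMinus (d - 1) F a b (z • v) = z * z * Cfsg.quadFormMinus (d - 1) F a b v := by
  unfold Cfsg.quadFormMinus
  rw [mul_add, Finset.mul_sum]
  congr 1
  · apply Finset.sum_congr rfl
    intro i _
    simp only [Pi.smul_apply, smul_eq_mul]
    ring
  · simp only [Pi.smul_apply, smul_eq_mul]
    ring

theorem q_neg {F : Type u} [Field F] (d : ℕ) (a b : F) (v : M d → F) :
    Cfsg.quadFormMinus (d - 1) F a b (-v) = Cfsg.quadFormMinus (d - 1) F a b v := by
  unfold Cfsg.quadFormMinus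
  congr 1
  · apply Finset.sum_congr rfl
    intro i _
    simp only [Pi.neg_apply]
    ring
  · simp only [Pi.neg_apply]
    ring

theorem main : Proj.{u} := by
  intro F _ _ a₀ b₀ _ d hd r hr x hx hz
  obtain ⟨z, hz⟩ := hz
  have hxr : x ^ r ∈ Cfsg.isometryGroup F (Cfsg.quadFormMinus (d - 1) F a₀ b₀) :=
    Subgroup.pow_mem _ hx r
  have hxr' := (mem_iso _ (x ^ r)).1 hxr
  -- the test vector
  have hzz : z * z = 1 := by
    have h1 := hxr' (Sum.elim (fun _ : Fin (d - 1) ⊕ Fin (d - 1) => (0 : F))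
      (fun j : Fin 2 => if j = 0 then (1 : F) else 0))
    rw [hz, Matrix.smul_mulVec, Matrix.one_mulVec, q_smul] at h1
    have h2 : Cfsg.quadFormMinus (d - 1) F a₀ b₀
        (Sum.elim (fun _ : Fin (d - 1) ⊕ Fin (d - 1) => (0 : F))
          (fun j : Fin 2 => if j = 0 then (1 : F) else 0)) = 1 := by
      unfold Cfsg.quadFormMinus
      simp
    rw [h2, mul_one] at h1
    exact h1
  have hz1 : z = 1 ∨ z = -1 := by
    have h3 : (z - 1) * (z + 1) = 0 := by linear_combination hzz
    rcases mul_eq_zero.1 h3 with h | h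
    · left; exact sub_eq_zero.1 h
    · right; exact eq_neg_of_add_eq_zero_left h
  rcases hz1 with rfl | rfl
  · refine ⟨x, hx, ?_, fun W h => h⟩
    apply Units.ext
    rw [hz, one_smul]
    rfl
  · have hxm : x ^ r = -1 := by
      apply Units.ext
      rw [hz, Units.val_neg, Units.val_one, neg_smul, one_smul]
    refine ⟨-x, ?_, ?_, ?_⟩
    · rw [mem_iso]
      intro u
      rw [Units.val_neg, Matrix.neg_mulVec, q_neg]
      exact (mem_iso _ x).1 hx u
    · rw [Odd.neg_pow hr, hxm, neg_neg]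
    · intro W h
      rintro _ ⟨w, hw, rfl⟩
      have h1 : Matrix.toLin' ((-x : Matrix.GeneralLinearGroup (M d) F) : Matrix (M d) (M d) F) w
          ∈ W := h ⟨w, hw, rfl⟩
      rw [Units.val_neg, Matrix.toLin'_apply, Matrix.neg_mulVec, W.neg_mem_iff] at h1
      rw [Matrix.toLin'_apply]
      exact h1

end Cfsg.Agent.Lib.Helper72.TMPROJ
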