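import Mathlib
import Cfsg.Agent.Lib.Helper41.UnitStmt
import Cfsg.Agent.Lib.Helper40.GUReal

/-!
# S5982 / SELFDUAL (helper41's call)
-/

set_option autoImplicit false
universe u

namespace Cfsg.Agent.Lib.Helper72.UnitSELFDUAL

open Polynomial
open Cfsg.Agent.Lib.Helper40.HermAdj Cfsg.Agent.Lib.Helper40.RecipPoly
open Cfsg.Agent.Lib.Helper41.UnitStmt

/-- conjugate matrices (by an invertible `S`, in the form `S * x = y * S`) have the same
characteristic polynomial -/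
theorem charpoly_eq_of_conj {F : Type u} [Field F] {n : ℕ} (S x y : Matrix (Fin n) (Fin n) F)
    (hS : IsUnit S.det) (h : S * x = y * S) : x.charpoly = y.charpoly := by
  have hSu : IsUnit S := (Matrix.isUnit_iff_isUnit_det S).mpr hS
  obtain ⟨Su, rfl⟩ := hSu
  have h1 : y = (Su : Matrix (Fin n) (Fin n) F) * x * (Su : Matrix (Fin n) (Fin n) F)⁻¹ := by
    rw [h, mul_assoc]
    have : (Su : Matrix (Fin n) (Fin n) F) * (Su : Matrix (Fin n) (Fin n) F)⁻¹ = 1 :=
      Matrix.mul_nonsing_inv _ hS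
    rw [this, mul_one]
  rw [h1, Matrix.charpoly_units_conj]

theorem main : Cfsg.Agent.Lib.Helper41.UnitStmt.SelfDual.{u} := by
  intro F _ φ hφ n x hx
  obtain ⟨S, B, c, hS, hc, hB, hSx⟩ := hx
  refine ⟨c⁻¹, inv_ne_zero hc, ?_⟩
  have h1 : S * (c⁻¹ • x) = B * S := by
    rw [Matrix.mul_smul, hSx, Matrix.smul_mul, smul_smul, inv_mul_cancel₀ hc, one_smul]
  rw [charpoly_eq_of_conj S (c⁻¹ • x) B hS h1]
  exact Cfsg.Agent.Lib.Helper40.GUReal.rstar_charpoly_of_unitary φ hφ B hB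

end Cfsg.Agent.Lib.Helper72.UnitSELFDUAL
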