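import Mathlib
import Cfsg.Agent.Lib.Helper41.UnitStmt
import Cfsg.Agent.Lib.Helper40.GUReal
import Cfsg.Agent.Lib.Helper72.UnitSELFDUAL

/-!
# S5982 / BADURED (helper41's call)
-/

set_option autoImplicit false
universe u

namespace Cfsg.Agent.Lib.Helper72.UnitBADURED

open Polynomial
open Cfsg.Agent.Lib.Helper40.HermAdj Cfsg.Agent.Lib.Helper40.RecipPoly
open Cfsg.Agent.Lib.Helper41.UnitStmt

theorem adj_smul {F : Type u} [Field F] {n : ℕ} (φ : F →+* F) (c : F)
    (M : Matrix (Fin n) (Fin n) F) : adj φ (c • M) = φ c • adj φ M := by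
  ext i j
  simp [adj_apply]

theorem adj_pow {F : Type u} [Field F] {n : ℕ} (φ : F →+* F)
    (M : Matrix (Fin n) (Fin n) F) (k : ℕ) : adj φ (M ^ k) = (adj φ M) ^ k := by
  induction k with
  | zero => rw [pow_zero, pow_zero, adj_one]
  | succ k ih => rw [pow_succ, adj_mul, ih, pow_succ']

/-- a scalar multiple `c • B` of a unitary matrix with `φ c * c = 1` is unitary -/
theorem unitary_smul {F : Type u} [Field F] {n : ℕ} (φ : F →+* F) (c : F)
    (B : Matrix (Fin n) (Fin n) F) (hB : adj φ B * B = 1) (hc : φ c * c = 1) :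
    adj φ (c • B) * (c • B) = 1 := by
  rw [adj_smul, Matrix.smul_mul, Matrix.mul_smul, smul_smul, hc, one_smul, hB]

theorem main : Cfsg.Agent.Lib.Helper41.UnitStmt.BadURed.{u} := by
  intro F _ _ q₀ hq φ hφ r hr hrq n hn x hx hG
  obtain ⟨S, B, c, hS, hc, hB, hSx⟩ := hG
  have hφ2 : ∀ x, φ (φ x) = x := fun x => by
    rw [hφ, hφ, ← pow_mul, ← sq, ← hq, FiniteField.pow_card]
  have hSu : IsUnit S := (Matrix.isUnit_iff_isUnit_det S).mpr hS
  have h1 : ∀ k : ℕ, S * x ^ k = (c • B) ^ k * S := by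
    intro k
    induction k with
    | zero => simp
    | succ k ih => rw [pow_succ, ← mul_assoc, ih, mul_assoc, hSx, ← mul_assoc, ← pow_succ]
  have h2 : (c • B) ^ r = 1 := by
    have h := h1 r
    rw [hx, mul_one] at h
    exact (hSu.mul_left_inj).mp (by rw [one_mul]; exact h.symm)
  have h3 : c ^ r • B ^ r = 1 := by rw [← _root_.smul_pow]; exact h2
  have hB' : B * adj φ B = 1 := mul_eq_one_comm.mp hB
  have hcomm : Commute (adj φ B) B := by
    show adj φ B * B = B * adj φ B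
    rw [hB, hB']
  have h4 : adj φ (B ^ r) * B ^ r = 1 := by
    rw [adj_pow, ← hcomm.mul_pow, hB, one_pow]
  have h5 : B ^ r = (c ^ r)⁻¹ • (1 : Matrix (Fin n) (Fin n) F) := by
    rw [← h3, smul_smul, inv_mul_cancel₀ (pow_ne_zero r hc), one_smul]
  rw [h5, adj_smul, adj_one, Matrix.smul_mul, Matrix.mul_smul, smul_smul, one_mul] at h4
  have h6 : φ ((c ^ r)⁻¹) * (c ^ r)⁻¹ = 1 := by
    have h := congrFun (congrFun h4 ⟨0, hn⟩) ⟨0, hn⟩
    simpa using h
  have h7 : (c ^ (q₀ + 1)) ^ r = 1 := by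
    rw [hφ, ← pow_succ, inv_pow, inv_eq_one, ← pow_mul] at h6
    rw [← pow_mul, mul_comm]
    exact h6
  have hb0 : c ^ (q₀ + 1) ≠ 0 := pow_ne_zero _ hc
  have h8 : (c ^ (q₀ + 1)) ^ (Fintype.card F - 1) = 1 :=
    FiniteField.pow_card_sub_one_eq_one _ hb0
  have h9 : c ^ (q₀ + 1) = 1 := by
    have hd1 : orderOf (c ^ (q₀ + 1)) ∣ r := orderOf_dvd_of_pow_eq_one h7
    have hd2 : orderOf (c ^ (q₀ + 1)) ∣ Fintype.card F - 1 := orderOf_dvd_of_pow_eq_one h8
    rcases (Nat.dvd_prime hr).mp hd1 with h | h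
    · exact orderOf_eq_one_iff.mp h
    · rw [h] at hd2
      exact absurd hd2 hrq
  have h10 : φ c * c = 1 := by rw [hφ, ← pow_succ, h9]
  have h11 := unitary_smul φ c B hB h10
  rw [Cfsg.Agent.Lib.Helper72.UnitSELFDUAL.charpoly_eq_of_conj S x (c • B) hS hSx]
  exact Cfsg.Agent.Lib.Helper40.GUReal.rstar_charpoly_of_unitary φ hφ2 (c • B) h11

end Cfsg.Agent.Lib.Helper72.UnitBADURED
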