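import Mathlib
import Cfsg.Agent.Lib.Helper41.UnitStmt
import Cfsg.Agent.Lib.Helper40.GUReal

/-!
# S5982 / RSTARINV, SELFDUAL (helper41's call)
-/

set_option autoImplicit false
universe u

namespace Cfsg.Agent.Lib.Helper72.UnitRSTARINV

open Polynomial
open Cfsg.Agent.Lib.Helper40.HermAdj Cfsg.Agent.Lib.Helper40.RecipPoly
open Cfsg.Agent.Lib.Helper41.UnitStmt

theorem rstar_inv {F : Type u} [Field F] (φ : F →+* F) (n : ℕ)
    (A B : Matrix (Fin n) (Fin n) F) (hAB : A * B = 1) :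
    rstar φ A.charpoly = B.charpoly.map φ := by
  have h1 := Cfsg.Agent.Lib.Helper40.SUCount.reverse_charpoly_of_inv A B hAB
  rw [Cfsg.Agent.Lib.Helper40.GUReal.det_mul_sign] at h1
  have hk : A.charpoly.coeff 0 ≠ 0 := by
    rw [← Cfsg.Agent.Lib.Helper40.GUReal.det_mul_sign]
    have h2 : A.det * B.det = 1 := by rw [← Matrix.det_mul, hAB, Matrix.det_one]
    exact mul_ne_zero (left_ne_zero_of_mul_eq_one h2)
      (pow_ne_zero _ (neg_ne_zero.mpr one_ne_zero))
  have hk' : φ (A.charpoly.coeff 0) ≠ 0 := (map_ne_zero φ).mpr hk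
  unfold rstar
  rw [h1, Polynomial.map_mul, Polynomial.map_C, ← mul_assoc, ← C_mul, inv_mul_cancel₀ hk', C_1,
    one_mul]

theorem main : Cfsg.Agent.Lib.Helper41.UnitStmt.RstarInv.{u} := by
  intro F _ φ n A B hAB
  exact rstar_inv φ n A B hAB

end Cfsg.Agent.Lib.Helper72.UnitRSTARINV
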